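import Cfsg.Agent.Bd.Syl
import Cfsg.Agent.H8.L5f

/-! Frames: Sylow subgroups of a linear group of prime degree containing a regular diagonal element. -/

set_option autoImplicit false
set_option linter.unusedSectionVars false

namespace Cfsg.Agent.Sg

open Module Subgroup MulAction Function Cfsg.Agent.Bd
open scoped LinearAlgebra.Projectivization

theorem cyc {α : Type*} {n k : ℕ} (hn : n.Prime) {f : α → α} {S : Set α} (hS : S.ncard = n)
    (hf : Set.MapsTo f S S) {x : α} (hx : x ∈ S) (hk : f^[n ^ k] x = x) (h1 : f x ≠ x) {y : α}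
    (hy : y ∈ S) : ∃ m, f^[m] x = y := by
  have h2 : minimalPeriod f x ∣ n ^ k := IsPeriodicPt.minimalPeriod_dvd hk
  have h3 : n ≤ minimalPeriod f x := by
    obtain ⟨j, -, e⟩ := (Nat.dvd_prime_pow hn).1 h2
    rcases j with _ | j
    · exact (h1 (minimalPeriod_eq_one_iff_isFixedPt.1 e)).elim
    · rw [e]; exact Nat.le_self_pow (by omega) n
  have hfin : S.Finite := Set.finite_of_ncard_ne_zero (hS ▸ hn.ne_zero)
  have h4 : (fun m => f^[m] x) '' Set.Iio n = S := by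
    refine Set.eq_of_subset_of_ncard_le ?_ ?_ hfin
    · rintro _ ⟨m, -, rfl⟩
      exact hf.iterate m hx
    · rw [Set.InjOn.ncard_image (iterate_injOn_Iio_minimalPeriod.mono (Set.Iio_subset_Iio h3)), hS]
      simp
  obtain ⟨m, -, e⟩ := h4.ge hy
  exact ⟨m, e⟩

theorem cyc_fix {α : Type*} {n k : ℕ} (hn : n.Prime) {f : α → α} {S : Set α} (hS : S.ncard = n)
    (hf : Set.MapsTo f S S) {x : α} (hx : x ∈ S) (hk : f^[n ^ k] x = x) {y : α}
    (hy : y ∈ S) (h : f y = y) : f x = x := by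
  by_contra h1
  obtain ⟨m, e⟩ := cyc hn hS hf hx hk h1 hy
  have h2 : IsPeriodicPt f (n ^ k) x := hk
  have h3 : f^[n ^ k * m] x = x := h2.mul_const m
  obtain ⟨r, hr⟩ : ∃ r, n ^ k * m = r + m :=
    ⟨n ^ k * m - m, (Nat.sub_add_cancel (Nat.le_mul_of_pos_left m (pow_pos hn.pos k))).symm⟩
  rw [hr, iterate_add_apply, e, iterate_fixed h] at h3
  exact h1 (h3 ▸ h)

variable {F V ι : Type*} [Field F] [AddCommGroup V] [Module F V] [Fintype ι]

theorem ne_of_eq_smul {g : V ≃ₗ[F] V} {v w : V} {c : F} (hv : v ≠ 0) (h : g v = c • w) : c ≠ 0 := by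
  rintro rfl
  exact hv (by simpa using h)

/-- diagonal maps -/
def Dg (b : Basis ι F V) : Subgroup (V ≃ₗ[F] V) where
  carrier := {g | ∀ i, ∃ c : F, g (b i) = c • b i}
  one_mem' _ := ⟨1, by simp⟩
  mul_mem' := fun {g h} hg hh i => by
    obtain ⟨c, hc⟩ := hg i
    obtain ⟨d, hd⟩ := hh i
    exact ⟨d * c, by simp [hc, hd, smul_smul]⟩
  inv_mem' := fun {g} hg i => by
    obtain ⟨c, hc⟩ := hg i
    refine ⟨c⁻¹, g.injective ?_⟩
    simp [hc, smul_smul, ne_of_eq_smul (b.ne_zero i) hc]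

/-- monomial maps -/
def Mn (b : Basis ι F V) (g : V ≃ₗ[F] V) (τ : ι → ι) : Prop := ∀ i, ∃ c : F, g (b i) = c • b (τ i)

variable {b : Basis ι F V}

theorem idx_eq {i j : ι} {c d : F} (hc : c ≠ 0) (h : c • b i = d • b j) : i = j := by
  classical
  by_contra hn
  have := congrArg (fun v => b.repr v i) h
  simp [Finsupp.single_apply, Ne.symm hn, hc] at this

theorem Dg_comm {g h : V ≃ₗ[F] V} (hg : g ∈ Dg b) (hh : h ∈ Dg b) : g * h = h * g := by
  refine b.ext' fun i => ?_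
  obtain ⟨c, hc⟩ := hg i
  obtain ⟨d, hd⟩ := hh i
  simp [hc, hd, smul_smul, mul_comm]

theorem Mn.pow {g : V ≃ₗ[F] V} {τ : ι → ι} (h : Mn b g τ) (m : ℕ) : Mn b (g ^ m) τ^[m] := by
  induction m with
  | zero => exact fun i => ⟨1, by simp⟩
  | succ m ih =>
    intro i
    obtain ⟨c, hc⟩ := ih i
    obtain ⟨d, hd⟩ := h (τ^[m] i)
    exact ⟨c * d, by rw [pow_succ', LinearEquiv.mul_apply, hc, map_smul, hd, smul_smul,
      iterate_succ_apply']⟩

theorem Mn.iter {g : V ≃ₗ[F] V} {τ : ι → ι} (h : Mn b g τ) {m : ℕ} (hm : g ^ m = 1) (i : ι) :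
    τ^[m] i = i := by
  obtain ⟨c, hc⟩ := h.pow m i
  rw [hm] at hc
  exact (idx_eq (b := b) (d := c) one_ne_zero (by simpa using hc)).symm

theorem repr_dg {g : V ≃ₗ[F] V} {l : ι → F} (h : ∀ i, g (b i) = l i • b i) (v : V) (i : ι) :
    b.repr (g v) i = l i * b.repr v i := by
  classical
  conv_lhs => rw [← b.sum_repr v, map_sum]
  simp only [map_smul, h]
  simp [Finsupp.single_apply, mul_comm]

theorem eig {φ : V ≃ₗ[F] V} {l : ι → F} (h : ∀ i, φ (b i) = l i • b i) (hl : Injective l) {v : V}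
    {c : F} (hv : v ≠ 0) (e : φ v = c • v) : ∃ j, ∃ a : F, v = a • b j := by
  classical
  have h1 : ∀ i, b.repr v i ≠ 0 → l i = c := fun i hi => by
    have := repr_dg h v i
    rw [e, map_smul, Finsupp.smul_apply, smul_eq_mul] at this
    exact (mul_right_cancel₀ hi this).symm
  obtain ⟨j, hj⟩ : ∃ j, b.repr v j ≠ 0 := by
    by_contra hc
    push Not at hc
    exact hv (b.repr.injective (by ext i; simp [hc]))
  refine ⟨j, b.repr v j, b.repr.injective ?_⟩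
  ext i
  by_cases hi : j = i
  · simp [hi]
  · have : b.repr v i = 0 := by
      by_contra hc
      exact hi (hl ((h1 j hj).trans (h1 i hc).symm))
    simp [Finsupp.single_apply, hi, this]

theorem mn_of_conj {φ g : V ≃ₗ[F] V} {l : ι → F} (h : ∀ i, φ (b i) = l i • b i) (hl : Injective l)
    (hg : g⁻¹ * φ * g ∈ Dg b) : ∃ τ, Mn b g τ := by
  have : ∀ i, ∃ j, ∃ a : F, g (b i) = a • b j := fun i => by
    obtain ⟨c, hc⟩ := hg i
    refine eig h hl (c := c) (by simpa using b.ne_zero i) ?_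
    rw [← map_smul, ← hc]; simp
  choose τ hτ using this
  exact ⟨τ, hτ⟩

/-- the local structure at the prime `n` -/
structure Fr (n : ℕ) (b : Basis ι F V) (M : Subgroup (V ≃ₗ[F] V)) (φ : V ≃ₗ[F] V) (i₀ : ι)
    (Q R : Subgroup (V ≃ₗ[F] V)) : Prop where
  pg : IsPGroup n R
  le : R ≤ M
  QR : Q ≤ R
  ne : ∃ σ ∈ R, σ ∉ Q
  nrm : ∀ g ∈ R, ∀ x ∈ Q, g * x * g⁻¹ ∈ Q
  phi : φ ∈ Q
  dg : Q ≤ Dg b
  mono : ∀ g ∈ R, g ∉ Q → ∃ τ, Mn b g τ ∧ (∃ k, ∀ i, τ^[n ^ k] i = i) ∧ ∀ i, τ i ≠ i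
  onto : ∀ c : F, c ≠ 0 → (∃ k, c ^ n ^ k = 1) → ∃ D ∈ Q, D (b i₀) = c • b i₀

theorem exists_Fr [Finite (V ≃ₗ[F] V)] {n : ℕ} (hn : n.Prime) (hι : Fintype.card ι = n)
    (hP : n ∣ Nat.card (ℙ F V)) {M : Subgroup (V ≃ₗ[F] V)}
    (htr : ∀ v w : V, v ≠ 0 → w ≠ 0 → ∃ g ∈ M, g v = w) {φ : V ≃ₗ[F] V} (hφ : φ ∈ M) {l : ι → F}
    (h : ∀ i, φ (b i) = l i • b i) (hl : Injective l) {k : ℕ} (hk : φ ^ n ^ k = 1) (i₀ : ι) :
    ∃ Q R, Fr n b M φ i₀ Q R := by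
  have := Fact.mk hn
  set x₀ := Projectivization.mk F (b i₀) (b.ne_zero i₀) with hx₀
  set L := M ⊓ stabilizer (V ≃ₗ[F] V) x₀ with hL
  have mL : ∀ g, g ∈ L ↔ g ∈ M ∧ ∃ c : F, g (b i₀) = c • b i₀ := fun g => by
    rw [hL, mem_inf, mem_stabilizer_iff, H8.L5f.smul_mk_eq]
  obtain ⟨Q, hQ, hφQ⟩ := exists_sylIn (X := L) (pelt_pgroup hk)
    (zpowers_le.2 ((mL φ).2 ⟨hφ, _, h i₀⟩))
  have hφQ := zpowers_le.1 hφQ
  have hu : (Set.univ : Set ι).ncard = n := by rw [Set.ncard_univ, Nat.card_eq_fintype_card, hι]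
  have fx : ∀ {g : V ≃ₗ[F] V} {τ : ι → ι} {j i : ι} {m : ℕ}, Mn b g τ → g ^ n ^ m = 1 → τ j = j → τ i = i :=
    fun {g τ j i m} h1 h2 h3 => cyc_fix hn hu (Set.mapsTo_univ _ _) (Set.mem_univ i) (h1.iter h2 i)
      (Set.mem_univ j) h3
  have dg : Q ≤ Dg b := by
    have a1 : SylIn n (Q ⊓ Dg b) Q := sylIn_of_norm (hQ.pg.to_inf_left) inf_le_left fun R r1 r2 r3 r4 => by
      refine le_antisymm (fun g hg => ⟨r2 hg, ?_⟩) r4
      obtain ⟨τ, hτ⟩ := mn_of_conj h hl (g := g) (conj_inv_mem (mem_norm.1 (r3 hg)) φ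
        ⟨hφQ, fun i => ⟨_, h i⟩⟩).2
      obtain ⟨m, hm⟩ := pelt_of_mem r1 hg
      obtain ⟨c, hc⟩ := ((mL g).1 (hQ.le (r2 hg))).2
      obtain ⟨d, hd⟩ := hτ i₀
      have e := idx_eq (ne_of_eq_smul (b.ne_zero _) hd) (hd.symm.trans hc)
      intro i
      obtain ⟨a, ha⟩ := hτ i
      exact ⟨a, by rw [ha, fx hτ hm e]⟩
    rw [a1.max Q hQ.pg le_rfl inf_le_left]
    exact inf_le_right
  have ns : ¬ SylIn n Q M := fun a => by
    have : IsPretransitive M (ℙ F V) := ⟨fun x y => by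
      induction x using Projectivization.ind with | h v hv =>
      induction y using Projectivization.ind with | h w hw =>
      obtain ⟨g, hg, e⟩ := htr v w hv hw
      exact ⟨⟨g, hg⟩, (H8.L5f.smul_mk_eq g hv hw).2 ⟨1, by simpa using e⟩⟩⟩
    have e1 := (L.subgroupOf M).card_mul_index
    rw [Nat.card_congr (subgroupOfEquivOfLe (inf_le_left : L ≤ M)).toEquiv,
      show L.subgroupOf M = stabilizer M x₀ from by ext g; simp [hL, mem_subgroupOf]; rfl,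
      index_stabilizer_of_transitive] at e1
    exact a.not_dvd (e1 ▸ mul_dvd_mul (card_dvd_of_le hQ.le) hP)
  obtain ⟨R, r1, r2, r3, r4, r5⟩ : ∃ R : Subgroup (V ≃ₗ[F] V), IsPGroup n R ∧ R ≤ M ∧
      R ≤ normalizer (Q : Set (V ≃ₗ[F] V)) ∧ Q ≤ R ∧ R ≠ Q := by
    by_contra hc
    push Not at hc
    exact ns (sylIn_of_norm hQ.pg (hQ.le.trans inf_le_left) hc)
  refine ⟨Q, R, r1, r2, r4, ?_, fun g hg => mem_norm.1 (r3 hg), hφQ, dg, fun g hg hg' => ?_,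
    fun c hc ⟨m, hm⟩ => ?_⟩
  · by_contra hc
    push Not at hc
    exact r5 (le_antisymm hc r4)
  · obtain ⟨τ, hτ⟩ := mn_of_conj h hl (g := g) (dg (conj_inv_mem (mem_norm.1 (r3 hg)) φ hφQ))
    obtain ⟨m, hm⟩ := pelt_of_mem r1 hg
    refine ⟨τ, hτ, ⟨m, hτ.iter hm⟩, fun i e => hg' ?_⟩
    rw [← hQ.max (R ⊓ L) r1.to_inf_left inf_le_right (le_inf r4 hQ.le)]
    obtain ⟨a, ha⟩ := hτ i₀
    exact ⟨hg, (mL g).2 ⟨r2 hg, a, by rw [ha, fx hτ hm e]⟩⟩
  · obtain ⟨g, hg, e⟩ := htr (b i₀) (c • b i₀) (b.ne_zero _) (smul_ne_zero hc (b.ne_zero _))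
    have pw : ∀ j : ℕ, (g ^ j) (b i₀) = c ^ j • b i₀ := fun j => by
      induction j with
      | zero => simp
      | succ j ih => rw [pow_succ', LinearEquiv.mul_apply, ih, map_smul, e, smul_smul, pow_succ]
    obtain ⟨s, u, hu, hs⟩ := Nat.exists_eq_pow_mul_and_not_dvd (orderOf_pos g).ne' n hn.ne_one
    obtain ⟨w, hw⟩ := Nat.exists_mul_mod_eq_one_of_coprime (n := u) (k := n ^ (m + 1))
      (Nat.Coprime.pow_right _ ((Nat.Prime.coprime_iff_not_dvd hn).2 hu).symm)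
      (Nat.one_lt_pow (by omega) hn.one_lt)
    obtain ⟨y, hy, e2⟩ := hQ.conj_le (R := zpowers (g ^ (u * w))) (pelt_pgroup (n := s) (by
      rw [← pow_mul, show u * w * n ^ s = n ^ s * u * w by ring, ← hs, pow_mul, pow_orderOf_eq_one,
        one_pow])) (zpowers_le.2 ((mL _).2 ⟨M.pow_mem hg _, _, pw _⟩))
    refine ⟨_, e2 (conj_mem_cj (mem_zpowers _)), ?_⟩
    obtain ⟨a, ha⟩ := ((mL _).1 (L.inv_mem hy)).2
    have e3 : c ^ (u * w) = c := by
      rw [← Nat.div_add_mod (u * w) (n ^ (m + 1)), hw.2, pow_add, pow_mul, pow_succ n, pow_mul, hm]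
      simp
    rw [LinearEquiv.mul_apply, LinearEquiv.mul_apply, ha, map_smul, pw, e3, smul_comm, map_smul, ← ha]
    simp

end Cfsg.Agent.Sg
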