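import Cfsg.Agent.Sg.Res

/-! Cameron-Kantor in dimension seven. -/

set_option autoImplicit false
set_option linter.unusedSectionVars false

namespace Cfsg.Agent.H5.CK

open Module

theorem fieldk2 {F U N : Type*} [Field F] [Fintype F] [AddCommGroup U] [Module F U] [Finite U]
    [Group N] {k : ℕ} (hk : 0 < k) (hU : finrank F U = k) (τ : Representation F N U) (z : N)
    (irr : ∀ S : Submodule F U, (∀ u ∈ S, τ z u ∈ S) → S = ⊥ ∨ S = ⊤)
    (hc : ∀ n, Commute (n * z * n⁻¹) z) (n : N)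
    (hn : (∃ a b, n = a * b * a⁻¹ * b⁻¹) ∨ ∃ a, n = a ^ k) : τ n ^ (Fintype.card F ^ k - 1) = 1 := by
  classical
  have : Nontrivial U := Module.nontrivial_of_finrank_pos (R := F) (by omega)
  have : Finite (Module.End F U) := Finite.of_injective _ (DFunLike.coe_injective (F := U →ₗ[F] U))
  set K := Subalgebra.centralizer F {τ z} with hK
  have mK : ∀ a, a ∈ K ↔ τ z * a = a * τ z := fun a => by
    simp [hK, Subalgebra.mem_centralizer_iff]
  have inj : ∀ a : K, a ≠ 0 → ∀ u, (a : Module.End F U) u = 0 → u = 0 := fun a ha u hu => by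
    rcases irr (LinearMap.ker (a : Module.End F U)) (fun u hu => by
      rw [LinearMap.mem_ker] at hu ⊢
      rw [← Module.End.mul_apply, ← (mK _).1 a.2, Module.End.mul_apply, hu, map_zero]) with e | e
    · have : u ∈ LinearMap.ker (a : Module.End F U) := hu
      rwa [e] at this
    · exact absurd (Subtype.ext (LinearMap.ker_eq_top.1 e)) ha
  have : NoZeroDivisors K := ⟨fun {a b} hab => by
    by_contra hne
    push Not at hne
    refine hne.2 (Subtype.ext (LinearMap.ext fun u => inj a hne.1 _ ?_))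
    exact LinearMap.congr_fun (congrArg Subtype.val hab) u⟩
  have : IsDomain K := NoZeroDivisors.to_isDomain K
  have hF := Finite.isDomain_to_isField K
  let _ := hF.toField
  obtain ⟨u₀, hu₀⟩ := exists_ne (0 : U)
  let ev : K →ₗ[F] U := (LinearMap.applyₗ u₀) ∘ₗ K.val.toLinearMap
  have evi : Function.Injective ev := (injective_iff_map_eq_zero ev).2 fun a ha => by
    by_contra h0
    exact hu₀ (inj a h0 u₀ ha)
  have evs : LinearMap.range ev = ⊤ := by
    refine (irr _ ?_).resolve_left fun e => hu₀ ?_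
    · rintro _ ⟨a, rfl⟩
      exact ⟨⟨τ z, (mK _).2 rfl⟩ * a, rfl⟩
    · have : u₀ ∈ LinearMap.range ev := ⟨1, rfl⟩
      rwa [e] at this
  have dK : finrank F K = k := by
    rw [← hU, ← LinearMap.finrank_range_of_inj evi, evs, finrank_top]
  have cj : ∀ (n : N) (a : K), τ n * a * τ n⁻¹ ∈ K := fun n a => by
    have h1 : τ (n⁻¹ * z * n⁻¹⁻¹) ∈ K := (mK _).2 (by rw [← map_mul, ← map_mul, (hc _).eq])
    have h2 : τ (n⁻¹ * z * n⁻¹⁻¹) * a = a * τ (n⁻¹ * z * n⁻¹⁻¹) :=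
      congrArg Subtype.val (hF.mul_comm ⟨_, h1⟩ a)
    rw [mK]
    calc τ z * (τ n * a * τ n⁻¹) = τ n * (τ (n⁻¹ * z * n⁻¹⁻¹) * a) * τ n⁻¹ := by
          simp only [← mul_assoc, ← map_mul]; simp
      _ = τ n * a * τ n⁻¹ * τ z := by
          rw [h2]; simp only [mul_assoc, ← map_mul]; simp
  have e1 : ∀ n : N, τ n⁻¹ * τ n = 1 := fun n => by rw [← map_mul]; simp
  have e2 : ∀ n : N, τ n * τ n⁻¹ = 1 := fun n => by rw [← map_mul]; simp
  let c : N →* (K →ₐ[F] K) :=
    { toFun := fun n =>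
        { toFun := fun a => ⟨_, cj n a⟩
          map_one' := Subtype.ext (by simp [e2])
          map_mul' := fun a b => Subtype.ext (by
            simp only [MulMemClass.coe_mul, mul_assoc]
            rw [← mul_assoc (τ n⁻¹) (τ n), e1, one_mul])
          map_zero' := Subtype.ext (by simp)
          map_add' := fun a b => Subtype.ext (by simp [mul_add, add_mul])
          commutes' := fun r => Subtype.ext (by
            simp [Algebra.algebraMap_eq_smul_one, e2]) }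
      map_one' := AlgHom.ext fun a => Subtype.ext (by simp)
      map_mul' := fun m n => AlgHom.ext fun a => Subtype.ext (by
        simp [mul_assoc]) }
  let σ : N →* (K ≃ₐ[F] K) := (AlgEquiv.algHomUnitsEquiv F K).toMonoidHom.comp c.toHomUnits
  have hn : σ n = 1 := by
    rcases hn with ⟨a, b, rfl⟩ | ⟨a, rfl⟩
    · let _ := IsCyclic.commGroup (α := K ≃ₐ[F] K)
      simp only [map_mul, map_inv]
      rw [mul_right_comm (σ a)]
      simp
    · rw [map_pow, ← dK, ← IsGalois.card_aut_eq_finrank F K, pow_card_eq_one']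
  have h1 : c n = 1 := by
    have : c.toHomUnits n = 1 := (AlgEquiv.algHomUnitsEquiv F K).map_eq_one_iff.1 hn
    exact congrArg Units.val this
  have h2 : τ n ∈ K := by
    have : τ n * τ z * τ n⁻¹ = τ z :=
      congrArg Subtype.val (AlgHom.congr_fun h1 ⟨τ z, (mK _).2 rfl⟩)
    rw [mK]
    conv_lhs => rw [← this, mul_assoc, e1, mul_one]
  have h0 : (⟨τ n, h2⟩ : K) ≠ 0 := fun e => by
    have : τ n = 0 := congrArg Subtype.val e
    have h := e2 n
    rw [this, zero_mul] at h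
    exact zero_ne_one h
  have := Fintype.ofFinite K
  have := FiniteField.pow_card_sub_one_eq_one _ h0
  rw [Module.card_eq_pow_finrank (K := F), dK] at this
  exact congrArg Subtype.val this

theorem ppd_of {q k s : ℕ} (hs : s.Prime) (q0 : (q : ZMod s) ≠ 0) (o : orderOf (q : ZMod s) = k) (a b : ℕ)
    (hab : b ≤ a) (h : q ^ a ≡ q ^ b [MOD s]) : k ∣ a - b := by
  have := Fact.mk hs
  rw [← o, orderOf_dvd_iff_pow_eq_one]
  have := (ZMod.natCast_eq_natCast_iff _ _ _).2 h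
  push_cast at this
  refine mul_left_cancel₀ (pow_ne_zero b q0) ?_
  rw [← pow_add, Nat.add_sub_cancel' hab, this, mul_one]

theorem exists_ppd4 {q : ℕ} (hq : 2 ≤ q) : ∃ s : ℕ, s.Prime ∧ s ∣ q ^ 4 - 1 ∧
    ∀ a b : ℕ, b ≤ a → q ^ a ≡ q ^ b [MOD s] → 4 ∣ a - b := by
  have h5 : 5 ≤ q ^ 2 + 1 := by nlinarith
  obtain ⟨s, hs, h2, hd⟩ : ∃ s : ℕ, s.Prime ∧ s ≠ 2 ∧ s ∣ q ^ 2 + 1 := by
    by_cases h : 2 ∣ q ^ 2 + 1
    · obtain ⟨m, hm⟩ := h
      have m3 : ¬ 2 ∣ m := fun ⟨k, hk⟩ => by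
        have : (q ^ 2 + 1) % 4 = 0 := by omega
        have h9 : q % 4 < 4 := Nat.mod_lt _ (by norm_num)
        rw [Nat.add_mod, Nat.pow_mod] at this
        interval_cases q % 4 <;> simp at this
      exact ⟨m.minFac, Nat.minFac_prime (by omega), fun e => m3 (e ▸ Nat.minFac_dvd m),
        hm ▸ Dvd.dvd.mul_left (Nat.minFac_dvd m) 2⟩
    · exact ⟨_, Nat.minFac_prime (by omega), fun e => h ((Nat.minFac_eq_two_iff _).1 e), Nat.minFac_dvd _⟩
  have := Fact.mk hs
  have e : (q : ZMod s) ^ 2 + 1 = 0 := by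
    have := (ZMod.natCast_eq_zero_iff _ s).2 hd
    simpa using this
  have q0 : (q : ZMod s) ≠ 0 := fun h => by simp [h] at e
  have q1 : (q : ZMod s) ^ 2 ^ 1 ≠ 1 := fun h => by
    rw [pow_one] at h
    rw [h] at e
    have : ((2 : ℕ) : ZMod s) = 0 := by push_cast; linear_combination e
    exact h2 ((Nat.prime_dvd_prime_iff_eq hs Nat.prime_two).1 ((ZMod.natCast_eq_zero_iff _ s).1 this))
  have o : orderOf (q : ZMod s) = 2 ^ (1 + 1) :=
    haveI := Fact.mk Nat.prime_two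
    orderOf_eq_prime_pow q1 (by norm_num; linear_combination ((q : ZMod s) ^ 2 - 1) * e)
  refine ⟨s, hs, hd.trans ⟨q ^ 2 - 1, ?_⟩, ppd_of hs q0 o⟩
  obtain ⟨m, hm⟩ : ∃ m, q ^ 2 = m + 1 := ⟨q ^ 2 - 1, by omega⟩
  rw [show q ^ 4 = (q ^ 2) ^ 2 by ring, hm]
  exact Nat.sub_eq_of_eq_add (by simp; ring)

theorem exists_ppd5 {q : ℕ} (hq : 2 ≤ q) : ∃ s : ℕ, s.Prime ∧ s ∣ q ^ 5 - 1 ∧
    ∀ a b : ℕ, b ≤ a → q ^ a ≡ q ^ b [MOD s] → 5 ∣ a - b := by
  have h7 : 7 ≤ q ^ 4 + q ^ 3 + q ^ 2 + q + 1 := by nlinarith [Nat.zero_le (q ^ 4), Nat.zero_le (q ^ 3)]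
  obtain ⟨s, hs, h3, hd⟩ : ∃ s : ℕ, s.Prime ∧ s ≠ 5 ∧ s ∣ q ^ 4 + q ^ 3 + q ^ 2 + q + 1 := by
    by_cases h : 5 ∣ q ^ 4 + q ^ 3 + q ^ 2 + q + 1
    · obtain ⟨m, hm⟩ := h
      have m3 : ¬ 5 ∣ m := fun ⟨k, hk⟩ => by
        have : (q ^ 4 + q ^ 3 + q ^ 2 + q + 1) % 25 = 0 := by omega
        have h9 : q % 25 < 25 := Nat.mod_lt _ (by norm_num)
        rw [Nat.add_mod, Nat.add_mod (q ^ 4 + q ^ 3 + q ^ 2), Nat.add_mod (q ^ 4 + q ^ 3), Nat.add_mod (q ^ 4),
          Nat.pow_mod, Nat.pow_mod q 3, Nat.pow_mod q 2] at this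
        interval_cases q % 25 <;> simp at this
      exact ⟨m.minFac, Nat.minFac_prime (by omega), fun e => m3 (e ▸ Nat.minFac_dvd m),
        hm ▸ Dvd.dvd.mul_left (Nat.minFac_dvd m) 5⟩
    · exact ⟨_, Nat.minFac_prime (by omega), fun e => h (e ▸ Nat.minFac_dvd _), Nat.minFac_dvd _⟩
  have := Fact.mk hs
  have e : (q : ZMod s) ^ 4 + (q : ZMod s) ^ 3 + (q : ZMod s) ^ 2 + q + 1 = 0 := by
    have := (ZMod.natCast_eq_zero_iff _ s).2 hd
    simpa using this
  have q0 : (q : ZMod s) ≠ 0 := fun h => by simp [h] at e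
  have q1 : (q : ZMod s) ≠ 1 := fun h => by
    rw [h] at e
    have : ((5 : ℕ) : ZMod s) = 0 := by push_cast; linear_combination e
    exact h3 ((Nat.prime_dvd_prime_iff_eq hs Nat.prime_five).1 ((ZMod.natCast_eq_zero_iff _ s).1 this))
  have o : orderOf (q : ZMod s) = 5 :=
    haveI := Fact.mk Nat.prime_five
    orderOf_eq_prime (by linear_combination ((q : ZMod s) - 1) * e) q1
  refine ⟨s, hs, hd.trans ⟨q - 1, ?_⟩, ppd_of hs q0 o⟩
  obtain ⟨m, rfl⟩ : ∃ m, q = m + 1 := ⟨q - 1, by omega⟩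
  exact Nat.sub_eq_of_eq_add (by simp; ring)

section
variable {F V Δ : Type*} [Field F] [Fintype F] [AddCommGroup V] [Module F V] [Finite V]
  [Group Δ] [Finite Δ] [DistribMulAction Δ V] [SMulCommClass Δ F V]

theorem dim_fx7 [FaithfulSMul Δ V] (hd : finrank F V = 7) {s : ℕ} (hs : s.Prime)
    (H : ∀ a b : ℕ, b ≤ a → Fintype.card F ^ a ≡ Fintype.card F ^ b [MOD s] → 5 ∣ a - b)
    {z : Δ} (hz : orderOf z = s) : finrank F (Fx F V z) = 2 := by
  have h1 := fxk hs H hz (⊤ : Submodule F V) (fun _ _ => trivial)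
  rw [top_inf_eq, finrank_top, hd] at h1
  have h2 : Fx F V z ≠ ⊤ := fun e => by
    have : z = 1 := FaithfulSMul.eq_of_smul_eq_smul (α := V) fun v => by
      rw [one_smul]; exact mem_Fx.1 (e ▸ Submodule.mem_top (R := F))
    rw [this, orderOf_one] at hz
    exact hs.one_lt.ne hz
  have := Submodule.finrank_lt h2
  omega

theorem core7 [FaithfulSMul Δ V] (hd : finrank F V = 7) {s : ℕ} (hs : s.Prime)
    (H : ∀ a b : ℕ, b ≤ a → Fintype.card F ^ a ≡ Fintype.card F ^ b [MOD s] → 5 ∣ a - b)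
    {r : Δ} (hr : orderOf r = s) (hl : ∀ g : Δ, g ∈ SS Δ (Fx F V r)) {x y : V} (hx : x ≠ 0)
    (xl : x ∈ Fx F V r) (yl : y ∈ Fx F V r)
    (sp : ∀ v ∈ Fx F V r, ∃ a b : F, v = a • x + b • y)
    (u1 : ∀ c : F, ∃ g : Δ, g • x = x ∧ g • y = y + c • x)
    (u2 : ∀ c : F, ∃ g : Δ, g • y = y ∧ g • x = x + c • y) : TV F V Δ := by
  have dl := dim_fx7 hd hs H hr
  have rl : ∀ v ∈ Fx F V r, r • v = v := fun v => mem_Fx.1
  generalize Fx F V r = l at *
  let C : Subgroup Δ :=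
    { carrier := {g | ∀ v ∈ l, g • v = v}
      one_mem' := fun _ _ => one_smul _ _
      mul_mem' := fun {a b} ha hb v hv => by rw [mul_smul, hb v hv, ha v hv]
      inv_mem' := fun {a} ha v hv => by rw [inv_smul_eq_iff, ha v hv] }
  have : C.Normal := ⟨fun a ha h v hv => by
    rw [mul_smul, mul_smul, ha _ (hl h⁻¹ v hv), smul_inv_smul]⟩
  obtain ⟨z, zC, oz, N, zN, hN, fr⟩ := frat C hs (hr ▸ Subgroup.orderOf_dvd_natCard C rl)
  have el : l = Fx F V z := Submodule.eq_of_le_of_finrank_eq (fun v hv => mem_Fx.2 (zC v hv))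
    (by rw [dl, dim_fx7 hd hs H oz])
  obtain ⟨W₀, mW, dW⟩ : ∃ W₀ : Submodule F V, (∀ w, w ∈ W₀ ↔ ∃ v, z • v - v = w) ∧
      finrank F W₀ = 5 := by
    refine ⟨LinearMap.range (lin F V z - LinearMap.id), fun w => by simp, ?_⟩
    have := LinearMap.finrank_range_add_finrank_ker (lin F V z - LinearMap.id)
    have e : finrank F (LinearMap.ker (lin F V z - LinearMap.id)) = 2 := dim_fx7 hd hs H oz
    omega
  have cW : ∀ a : Δ, Commute a z → a ∈ SS Δ W₀ := fun a ha w hw => by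
    obtain ⟨v, rfl⟩ := (mW w).1 hw
    exact (mW _).2 ⟨a • v, by rw [smul_sub, ← mul_smul, ← ha.eq, mul_smul]⟩
  have dj : ∀ S : Submodule F V, z ∈ SS Δ S → 5 ∣ finrank F S - finrank F (S ⊓ l : Submodule F V) :=
    fun S hS => el ▸ fxk hs H oz S hS
  have hc : IsCompl l W₀ := by
    have h1 := dj W₀ (cW z (Commute.refl z))
    have h2 := Submodule.finrank_mono (inf_le_right : W₀ ⊓ l ≤ l)
    have h3 : finrank F (W₀ ⊓ l : Submodule F V) = 0 := by omega
    rw [Submodule.finrank_eq_zero, inf_comm] at h3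
    refine ⟨disjoint_iff.2 h3, codisjoint_iff.2 (Submodule.eq_top_of_finrank_eq ?_)⟩
    have := Submodule.finrank_sup_add_finrank_inf_eq l W₀
    rw [h3, finrank_bot] at this
    omega
  have NW : ∀ n ∈ N, n ∈ SS Δ W₀ := fun n hn w hw => by
    obtain ⟨v, rfl⟩ := (mW w).1 hw
    obtain ⟨u, hu, w, hw, e⟩ :=
      Submodule.mem_sup.1 (hc.sup_eq_top ▸ Submodule.mem_top (x := n • v))
    have : n • (z • v - v) = (n * z * n⁻¹) • w - w := by
      rw [smul_sub, show n • z • v = (n * z * n⁻¹) • n • v by simp [mul_smul], ← e, smul_add,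
        Subgroup.Normal.conj_mem this z zC n u hu, add_sub_add_left_eq_sub]
    rw [this]
    exact W₀.sub_mem (cW _ (hN n hn) w hw) hw
  let τ : Representation F N W₀ := (rep F V N).subrepresentation W₀ fun n => NW n n.2
  have τa : ∀ (n : N) (w : W₀), (τ n w : V) = (n : Δ) • (w : V) := fun _ _ => rfl
  have hσ := fieldk2 (by omega) dW τ ⟨z, zN⟩ (fun S hS => by
      have h1 := dj (S.map W₀.subtype) (by
        rintro _ ⟨u, hu, rfl⟩
        exact ⟨_, hS u hu, rfl⟩)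
      have h2 : S.map W₀.subtype ⊓ l = ⊥ :=
        disjoint_iff.1 (hc.disjoint.symm.mono_left (Submodule.map_subtype_le _ _))
      rw [h2, finrank_bot, Submodule.finrank_map_subtype_eq] at h1
      have h3 := Submodule.finrank_le S
      by_cases h0 : finrank F S = 0
      · exact Or.inl (Submodule.finrank_eq_zero.1 h0)
      · exact Or.inr (Submodule.eq_top_of_finrank_eq (by omega)))
    (fun n => Subtype.ext (hN n n.2))
  have cast : ((Fintype.card F ^ 5 - 1 : ℕ) : F) = -1 := by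
    rw [Nat.cast_sub (Nat.one_le_pow _ _ Fintype.card_pos)]
    simp
  have A : ∀ (n : N) (c : F), c ≠ 0 → ((∃ a b, n = a * b * a⁻¹ * b⁻¹) ∨ ∃ a, n = a ^ 5) → (n : Δ) • x = x →
      (n : Δ) • y = y + c • x → TV F V Δ := fun n c hc0 hn h1 h2 =>
    tvA hc sp (fun w hw => by
      have t := τa (n ^ (Fintype.card F ^ 5 - 1)) ⟨w, hw⟩
      rw [map_pow, hσ n hn] at t
      exact t.symm) (pow_uni h1 h2 _).1 (pow_uni h1 h2 _).2 (by simpa [cast] using hc0) hx
  have lift : ∀ g : Δ, ∃ n : N, ∀ v ∈ l, (n : Δ) • v = g • v := fun g => by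
    obtain ⟨n, hn, c, hc, rfl⟩ := fr g
    exact ⟨⟨n, hn⟩, fun v hv => by rw [mul_smul, hc v hv]⟩
  have u1' : ∀ c : F, ∃ n : N, (n : Δ) • x = x ∧ (n : Δ) • y = y + c • x := fun c => by
    obtain ⟨g, g1, g2⟩ := u1 c
    obtain ⟨n, hn⟩ := lift g
    exact ⟨n, by rw [hn x xl, g1], by rw [hn y yl, g2]⟩
  have u2' : ∀ c : F, ∃ n : N, (n : Δ) • y = y ∧ (n : Δ) • x = x + c • y := fun c => by
    obtain ⟨g, g1, g2⟩ := u2 c
    obtain ⟨n, hn⟩ := lift g
    exact ⟨n, by rw [hn y yl, g1], by rw [hn x xl, g2]⟩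
  choose n n1 n2 using u1'
  choose m m1 m2 using u2'
  by_cases h5 : (5 : F) = 0
  swap
  · exact A (n 1 ^ 5) 5 h5 (Or.inr ⟨_, rfl⟩) (pow_uni (n1 1) (n2 1) 5).1 (by simpa using (pow_uni (n1 1) (n2 1) 5).2)
  have t5 : ∀ v : V, (5 : F) • v = 0 := fun v => by rw [h5, zero_smul]
  obtain ⟨d, d1, d2⟩ : ∃ d : N, (d : Δ) • x = (2 : F) • x ∧ (d : Δ) • y = (3 : F) • y := by
    refine ⟨n 2 * m 2 * n 2 * (n (-1) * m 1 * n (-1)), ?_, ?_⟩ <;>
      simp only [Subgroup.coe_mul, mul_smul, smul_add, gsm, n1, n2, m1, m2]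
    · linear_combination (norm := module) (2 : F) • t5 x + t5 y
    · linear_combination (norm := module) -t5 x - t5 y
  have d1' : (d : Δ)⁻¹ • x = (3 : F) • x := by
    rw [inv_smul_eq_iff, gsm, d1]; linear_combination (norm := module) -t5 x
  have d2' : (d : Δ)⁻¹ • y = (2 : F) • y := by
    rw [inv_smul_eq_iff, gsm, d2]; linear_combination (norm := module) -t5 y
  have a1' : ((n 1 : N) : Δ)⁻¹ • x = x := by rw [inv_smul_eq_iff, n1]
  have a2' : ((n 1 : N) : Δ)⁻¹ • y = y - x := by rw [inv_smul_eq_iff, smul_sub, n1, n2]; module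
  refine A (d * n 1 * d⁻¹ * (n 1)⁻¹) 3 (fun h3 => one_ne_zero (α := F) ?_) (Or.inl ⟨_, _, rfl⟩) ?_ ?_
  · linear_combination 2 * h3 - h5
  · simp only [Subgroup.coe_mul, Subgroup.coe_inv, mul_smul, gsm, a1', d1', n1, d1]
    linear_combination (norm := module) t5 x
  · simp only [Subgroup.coe_mul, Subgroup.coe_inv, mul_smul, smul_sub, smul_add, gsm, a2', d1', d2', n1, n2, d1, d2]
    linear_combination (norm := module) t5 y - t5 x

end

section
variable {F V W Γ : Type*} [Field F] [Fintype F] [AddCommGroup V] [Module F V] [Finite V]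
  [AddCommGroup W] [Module F W] [Finite W] [Group Γ] [Finite Γ]
  [DistribMulAction Γ V] [SMulCommClass Γ F V] [DistribMulAction Γ W] [SMulCommClass Γ F W]
  {B : V →ₗ[F] W →ₗ[F] F}

theorem Hyp.perin7 [FaithfulSMul Γ V] (h : Hyp Γ B) (hd : finrank F V = 7)
    (dv : Fintype.card F ^ 5 - 1 ∣ Nat.card Γ) : TV F V Γ := by
  obtain ⟨s, hs, sd, H⟩ := exists_ppd5 (q := Fintype.card F) Fintype.one_lt_card
  have := Fact.mk hs
  obtain ⟨r, hr⟩ := exists_prime_orderOf_dvd_card' (G := Γ) s (sd.trans dv)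
  have dl := dim_fx7 (V := V) hd hs H hr
  obtain ⟨x, xl, hx⟩ := H7.exists_mem_notMem_of_finrank_lt (U := Fx F V r) (W := ⊥)
    (by rw [finrank_bot]; omega)
  have hx := ne_zero_of_not_mem hx
  obtain ⟨y, yl, hy⟩ := H7.exists_mem_notMem_of_finrank_lt (U := Fx F V r) (W := F ∙ x)
    (by rw [finrank_span_singleton hx]; omega)
  have sp : ∀ v ∈ Fx F V r, ∃ a b : F, v = a • x + b • y := fun v hv => by
    obtain ⟨a, b, e⟩ := Submodule.mem_span_pair.1 (span_two_le (U := Submodule.span F {x, y}) dl hx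
      hy xl yl (Submodule.subset_span (by simp)) (Submodule.subset_span (by simp)) hv)
    exact ⟨a, b, e.symm⟩
  have mem : ∀ g : Γ, g • x ∈ Fx F V r → g • y ∈ Fx F V r → g ∈ SS Γ (Fx F V r) :=
    fun g h1 h2 v hv => by
      obtain ⟨a, b, rfl⟩ := sp v hv
      rw [smul_add, gsm, gsm]
      exact Submodule.add_mem _ (Submodule.smul_mem _ _ h1) (Submodule.smul_mem _ _ h2)
  let r' : SS Γ (Fx F V r) := ⟨r, fun v hv => by rwa [mem_Fx.1 hv]⟩
  obtain ⟨g, b, h1, h2, h3⟩ := core7 (Δ := SS Γ (Fx F V r)) (r := r') hd hs H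
    (by rw [← Subgroup.orderOf_coe, hr]) (fun g => g.2) hx xl yl sp
    (fun c => by
      obtain ⟨g, g1, g2⟩ := h.uni hy c
      exact ⟨⟨g, mem g (by rwa [g1]) (by
        rw [g2]; exact Submodule.add_mem _ yl (Submodule.smul_mem _ _ xl))⟩, g1, g2⟩)
    (fun c => by
      obtain ⟨g, g1, g2⟩ := h.uni (not_mem_span_symm hx hy) c
      exact ⟨⟨g, mem g (by rw [g2]; exact Submodule.add_mem _ xl (Submodule.smul_mem _ _ yl)) (by rwa [g1])⟩,
        g1, g2⟩)
  exact ⟨g, b, h1, h2, h3⟩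

end

universe u v

open scoped LinearAlgebra.Projectivization in
/-- the Cameron-Kantor theorem in dimension seven from the structure theorem -/
theorem ck7_of {F : Type u} {V : Type v} [Field F] [Fintype F] [AddCommGroup V] [Module F V] [FiniteDimensional F V]
    (ST : ∀ (U : Type v) [AddCommGroup U] [Module F U] [Finite U] [Finite (Dl F U)] [Finite (U ≃ₗ[F] U)]
      (M : Subgroup (U ≃ₗ[F] U)), Hyp M (ev F U) → 7 ≤ finrank F U → Tr M (ev F U) ∨
        (Odd (finrank F U) ∧ Fintype.card F ^ (finrank F U - 3) - 1 ∣ Nat.card M))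
    (h7 : finrank F V = 7) (M : Subgroup (V ≃ₗ[F] V))
    (h2 : ∀ x y x' y' : ℙ F V, x ≠ y → x' ≠ y' → ∃ g ∈ M, g • x = x' ∧ g • y = y')
    (g : V ≃ₗ[F] V) (hg : LinearEquiv.det g = 1) : g ∈ M := by
  have : Finite V := Module.finite_of_finite F
  have : Finite (Dl F V) := Module.finite_of_finite (R := F) (M := Dual F V)
  have : Finite (V ≃ₗ[F] V) := Finite.of_injective _ (DFunLike.coe_injective (F := V ≃ₗ[F] V))
  have h := hyp_withScal (by omega) M h2
  have tv : TV F V (withScal M) := by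
    rcases ST V _ h (by omega) with tr | ⟨-, e⟩
    · exact h.perin7 h7 (h.tr_dvd tr h7)
    · obtain ⟨s, hs, sd, H⟩ := exists_ppd4 (q := Fintype.card F) Fintype.one_lt_card
      rw [h7] at e
      exact h.perin (k := 4) h7 le_rfl hs H (sd.trans e)
  refine H7.mem_of_det_of_has (fun φ b hb => has_of_withScal hb ?_) g hg
  obtain ⟨t, ht⟩ := h.all_tv tv (-b) φ (by
    show φ (-b) = 0
    simp [hb])
  exact ⟨t, t.2, ht⟩

end Cfsg.Agent.H5.CK
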