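import Cfsg.Agent.Sg.P1
import Cfsg.Agent.H8.L5f

/-!
An overgroup of the norm one part of a Singer cycle is semilinear or transitive on nonzero vectors.
-/

set_option autoImplicit false
set_option linter.unusedSectionVars false

namespace Cfsg.Agent.Sg.P1

open Finset Module

/-- cyclic shift -/
def sh {N : ℕ} (a : ℕ) (r : Fin N) : Fin N := ⟨(r + a) % N, Nat.mod_lt _ r.pos⟩

theorem sh_inj {N : ℕ} (a : ℕ) : Function.Injective (sh (N := N) a) := fun r r' h =>
  Fin.ext (Nat.ModEq.eq_of_lt_of_lt (Nat.ModEq.add_right_cancel' a (congrArg Fin.val h)) r.2 r'.2)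

theorem sh_modNat {n f : ℕ} (a : ℕ) (r : Fin (n * f)) : (sh a r).modNat = sh a r.modNat := by
  ext
  simp [sh, Nat.mod_mod_of_dvd]

theorem sh_mul {f : ℕ} (j : ℕ) (s : Fin f) : sh (f * j) s = s := by
  ext
  simp [sh, Nat.mod_eq_of_lt s.2]

theorem sh_all {f : ℕ} {Q : Fin f → Prop} (h : ∀ s, Q s → Q (sh 1 s)) {s₀ : Fin f} (h0 : Q s₀) (s : Fin f) : Q s := by
  have : ∀ k, Q (sh k s₀) := fun k => by
    induction k with
    | zero => have := sh_mul 0 s₀; rw [mul_zero] at this; rwa [this]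
    | succ k ih =>
      have e : sh (k + 1) s₀ = sh 1 (sh k s₀) := by ext; simp [sh, add_assoc]
      exact e ▸ h _ ih
  have e : sh (f - s₀ + s) s₀ = s := by
    ext
    have := s₀.2
    simp only [sh]
    rw [show (s₀ : ℕ) + (f - s₀ + s) = s + f by omega, Nat.add_mod_right, Nat.mod_eq_of_lt s.2]
  exact e ▸ this _

variable {E : Type*} [Field E] [Fintype E] {p N : ℕ}

theorem pow_mod (hE : Fintype.card E = p ^ N) (x : E) (a : ℕ) : x ^ p ^ (a % N) = x ^ p ^ a := by
  conv_rhs => rw [← Nat.div_add_mod a N, pow_add, pow_mul p, ← hE, pow_mul, FiniteField.pow_card_pow]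

theorem z_sh (hE : Fintype.card E = p ^ N) (x : E) (a : ℕ) (r : Fin N) :
    x ^ p ^ (sh a r : ℕ) = (x ^ p ^ (r : ℕ)) ^ p ^ a := by
  rw [sh, pow_mod hE, pow_add, pow_mul]

theorem ind (hE : Fintype.card E = p ^ N) (Φ : MvPolynomial (Fin N) E) (h : ∀ m, Φ.coeff m ≠ 0 → Red p m)
    (h0 : ∀ x : E, MvPolynomial.eval (fun r : Fin N => x ^ p ^ (r : ℕ)) Φ = 0) : Φ = 0 := by
  set ee : (Fin N →₀ ℕ) → ℕ := fun m => ∑ r, m r * p ^ (r : ℕ) with hee
  have e1 : ∀ m (hm : Red p m), ee m = finFunctionFinEquiv fun r => (⟨m r, hm r⟩ : Fin p) := fun m hm => rfl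
  have hP : (∑ m ∈ Φ.support, Polynomial.monomial (ee m) (Φ.coeff m)) = 0 := by
    refine Polynomial.eq_zero_of_natDegree_lt_card_of_eval_eq_zero _ Function.injective_id (fun x => ?_) ?_
    · rw [← h0 x]
      conv_rhs => rw [Φ.as_sum]
      simp only [Polynomial.eval_finset_sum, Polynomial.eval_monomial, map_sum,
        eval_mono (fun (r : Fin N) (x : E) => x ^ p ^ (r : ℕ)), fn, id, hee, ← pow_mul, prod_pow_eq_pow_sum,
        mul_comm (p ^ _)]
    · refine lt_of_le_of_lt (Polynomial.natDegree_sum_le_of_forall_le _ (n := Fintype.card E - 1) _ fun m hm => ?_)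
        (Nat.sub_lt Fintype.card_pos one_pos)
      refine (Polynomial.natDegree_monomial_le _).trans ?_
      rw [e1 m (h m (MvPolynomial.mem_support_iff.1 hm)), hE]
      exact Nat.le_sub_one_of_lt (Fin.is_lt _)
  by_contra hne
  obtain ⟨m, hm⟩ := MvPolynomial.exists_coeff_ne_zero hne
  have := congrArg (Polynomial.coeff · (ee m)) hP
  simp only [Polynomial.finset_sum_coeff, Polynomial.coeff_monomial, Polynomial.coeff_zero] at this
  rw [sum_eq_single m, if_pos rfl] at this
  · exact hm this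
  · intro m' hm' hne'
    rw [if_neg]
    intro e
    rw [e1 m (h m hm), e1 m' (h m' (MvPolynomial.mem_support_iff.1 hm'))] at e
    have := finFunctionFinEquiv.injective (Fin.ext e)
    exact hne' (Finsupp.ext fun r => congrArg Fin.val (congrFun this r))
  · intro h'; exact absurd (MvPolynomial.mem_support_iff.2 hm) h'

theorem cnt {n f : ℕ} (s : Fin f) : n ≤ (univ.filter (fun r : Fin (n * f) => r.modNat = s)).card := by
  conv_lhs => rw [← Fintype.card_fin n, ← Finset.card_univ]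
  refine card_le_card_of_injOn (fun j => finProdFinEquiv (j, s)) (fun j _ => ?_) fun j _ j' _ h => ?_
  · have := finProdFinEquiv.symm_apply_apply (j, s)
    rw [finProdFinEquiv_symm_apply] at this
    simpa using congrArg Prod.snd this
  · exact congrArg Prod.fst (finProdFinEquiv.injective h)

variable {F : Type*} [Field F] [Fintype F] [Algebra F E]

theorem exists_lin (G : E →ₗ[F] E) :
    ∃ a : Fin (finrank F E) → E, ∀ x, G x = ∑ j, a j * x ^ Fintype.card F ^ (j : ℕ) := by
  have li := (linearIndependent_algHom_toLinearMap F E E).comp _ (FiniteField.bijective_frobeniusAlgHom_pow F E).1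
  have := li.span_eq_top_of_card_eq_finrank' (by rw [Module.finrank_linearMap_self, Fintype.card_fin])
  obtain ⟨a, ha⟩ := (Submodule.mem_span_range_iff_exists_fun E).1 (this ▸ Submodule.mem_top (x := G))
  refine ⟨a, fun x => ?_⟩
  rw [← ha]
  simp [LinearMap.sum_apply, AlgHom.coe_pow, FiniteField.coe_frobeniusAlgHom, pow_iterate]

theorem norm_pow {n f : ℕ} (hF : Fintype.card F = p ^ f) (hn : finrank F E = n) (d : Fin f → ℕ) (x : E) :
    ∏ r : Fin (n * f), (x ^ p ^ (r : ℕ)) ^ d r.modNat = algebraMap F E (Algebra.norm F x ^ ∑ s, d s * p ^ (s : ℕ)) := by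
  rw [map_pow, FiniteField.algebraMap_norm_eq_pow_sum, hn, Nat.card_eq_fintype_card, hF]
  simp only [← pow_mul, prod_pow_eq_pow_sum]
  congr 1
  rw [← finProdFinEquiv.sum_comp, Fintype.sum_prod_type, Finset.sum_range, sum_mul_sum]
  refine sum_congr rfl fun j _ => sum_congr rfl fun s _ => ?_
  have := finProdFinEquiv.symm_apply_apply (j, s)
  rw [finProdFinEquiv_symm_apply] at this
  rw [show (finProdFinEquiv (j, s)).modNat = s from congrArg Prod.snd this, finProdFinEquiv_apply_val]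
  ring

theorem geo (hp : 1 ≤ p) (f : ℕ) : ∑ s : Fin f, (p - 1) * p ^ (s : ℕ) = p ^ f - 1 := by
  obtain ⟨p, rfl⟩ := Nat.exists_eq_add_of_le' hp
  refine (Nat.sub_eq_of_eq_add ?_).symm
  induction f with
  | zero => simp
  | succ f ih =>
    rw [Fin.sum_univ_castSucc, pow_succ, add_right_comm]
    simp only [Fin.val_castSucc, Fin.val_last] at ih ⊢
    rw [← ih, Nat.add_sub_cancel]; ring

theorem exists_T {f : ℕ} (hp : 1 ≤ p) (hF : Fintype.card F = p ^ f) (h : F → F) :
    ∃ (T : Finset (Fin f → ℕ)) (c : (Fin f → ℕ) → F), (∀ d ∈ T, c d ≠ 0 ∧ (∀ s, d s < p) ∧ (∃ s, d s ≠ 0) ∧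
      ∃ s, d s ≠ p - 1) ∧ ∀ y y' : F, (y = 0 ↔ y' = 0) →
        h y - h y' = ∑ d ∈ T, c d * y ^ (∑ s, d s * p ^ (s : ℕ)) - ∑ d ∈ T, c d * y' ^ ∑ s, d s * p ^ (s : ℕ) := by
  classical
  set I := Lagrange.interpolate univ id h with hI
  have e1 : ∀ y, h y = ∑ d : Fin f → Fin p, I.coeff (∑ s, d s * p ^ (s : ℕ)) * y ^ ∑ s, (d s : ℕ) * p ^ (s : ℕ) :=
    fun y => by
      have hd : I.natDegree < p ^ f := by
        by_cases h0 : I = 0
        · rw [h0, Polynomial.natDegree_zero]; positivity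
        · rw [Polynomial.natDegree_lt_iff_degree_lt h0, ← hF]
          exact Lagrange.degree_interpolate_lt _ Function.injective_id.injOn
      rw [← Lagrange.eval_interpolate_at_node (s := univ) (v := id) h Function.injective_id.injOn (mem_univ y),
        Polynomial.eval_eq_sum_range' hd, Finset.sum_range, ← finFunctionFinEquiv.sum_comp]
      rfl
  set Q : (Fin f → Fin p) → Prop := fun d => I.coeff (∑ s, d s * p ^ (s : ℕ)) ≠ 0 ∧ (∃ s, (d s : ℕ) ≠ 0) ∧
    ∃ s, (d s : ℕ) ≠ p - 1 with hQ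
  refine ⟨(univ.filter Q).image fun d s => (d s : ℕ), fun d => I.coeff (∑ s, d s * p ^ (s : ℕ)), fun d hd => ?_,
    fun y y' hy => ?_⟩
  · obtain ⟨d, hd', rfl⟩ := mem_image.1 hd
    have := (mem_filter.1 hd').2
    exact ⟨this.1, fun s => (d s).2, this.2⟩
  · have inj : Set.InjOn (fun (d : Fin f → Fin p) s => (d s : ℕ)) (univ.filter Q) := fun d _ d' _ e =>
      funext fun s => Fin.ext (congrFun e s)
    rw [sum_image inj, sum_image inj, e1 y, e1 y', ← sum_filter_add_sum_filter_not univ Q,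
      ← sum_filter_add_sum_filter_not univ Q, add_sub_add_comm, add_eq_left, sub_eq_zero]
    refine sum_congr rfl fun d hd => ?_
    have := (mem_filter.1 hd).2
    simp only [hQ, not_and_or, not_exists, not_not] at this
    rcases this with e | e | e
    · rw [e, zero_mul, zero_mul]
    · simp [e]
    · simp only [e, geo hp, ← hF]
      by_cases c : y = 0
      · rw [c, hy.1 c]
      · rw [FiniteField.pow_card_sub_one_eq_one _ c, FiniteField.pow_card_sub_one_eq_one _ (mt hy.2 c)]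

theorem semi (h4 : 4 ≤ finrank F E) (G : E →ₗ[F] E) (hG : ∀ x, G x = 0 ↔ x = 0) (h : F → F) {a a' : F} (ha : a ≠ 0)
    (ha' : a' ≠ 0) (hne : h a ≠ h a') (H : ∀ x, h (Algebra.norm F (G x)) = h (Algebra.norm F x)) (e : E) :
    ∃ e', ∀ x, G (e * x) = e' * G x := by
  classical
  obtain ⟨p, hp⟩ := CharP.exists F
  obtain ⟨⟨f, f0⟩, pp, hF⟩ := FiniteField.card F p
  simp only [PNat.mk_coe] at hF
  haveI : Fact p.Prime := ⟨pp⟩
  haveI : CharP E p := charP_of_injective_algebraMap (algebraMap F E).injective p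
  have hE : Fintype.card E = p ^ (finrank F E * f) := by
    rw [Module.card_eq_pow_finrank (K := F), hF, ← pow_mul, mul_comm]
  obtain ⟨T, c, hT, hc⟩ := exists_T pp.one_le hF h
  obtain ⟨α, hα⟩ := exists_lin G
  set b : Fin (finrank F E * f) → Fin (finrank F E * f) → E := fun r t =>
    ∑ j ∈ univ.filter (fun j : Fin (finrank F E) => sh (f * j) r = t), α j ^ p ^ (r : ℕ) with hb
  have hbz : ∀ r x, ∑ t, b r t * x ^ p ^ (t : ℕ) = G x ^ p ^ (r : ℕ) := fun r x => by
    rw [hα, sum_pow_char_pow, ← sum_fiberwise univ fun j : Fin (finrank F E) => sh (f * j) r]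
    refine sum_congr rfl fun t _ => ?_
    rw [hb, sum_mul]
    refine sum_congr rfl fun j hj => ?_
    rw [← (mem_filter.1 hj).2, z_sh hE, mul_pow, hF, ← pow_mul p, pow_right_comm]
  obtain ⟨r, hr⟩ := core (p := p) (σ := sh 1) (z := fun (r : Fin (finrank F E * f)) (x : E) => x ^ p ^ (r : ℕ))
    (fun r x => by rw [z_sh hE, pow_one]) (ind hE) (sh_inj 1) (lev := Fin.modNat) (sh_inj 1) (sh_modNat 1)
    (fun s => h4.trans (cnt s)) (T := T) (by
      rw [nonempty_iff_ne_empty]
      rintro rfl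
      exact hne (by simpa [sub_eq_zero] using hc a a' (by simp [ha, ha']))) (c := fun d => algebraMap F E (c d))
    (fun d hd => by simpa using (hT d hd).1) (fun d hd => (hT d hd).2.1) (fun d hd h01 => by
      by_contra hcon
      obtain ⟨s₀, hs₀⟩ := (hT d hd).2.2.1
      obtain ⟨s₁, hs₁⟩ := (hT d hd).2.2.2
      exact hs₁ (sh_all (Q := fun s => d s = p - 1) (fun s hs => (h01 _).resolve_left fun e => hcon ⟨s, hs, e⟩)
        ((h01 _).resolve_left hs₀) s₁)) (b := b) (fun r t ht => by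
      obtain ⟨j, hj, -⟩ := exists_ne_zero_of_sum_ne_zero ht
      rw [← (mem_filter.1 hj).2, sh_modNat, sh_mul]) (fun x => by
      simp only [hbz]
      simp only [norm_pow hF rfl, ← map_mul, ← map_sum]
      congr 1
      rw [← sub_eq_zero, ← hc _ _ (by simp [hG]), H, sub_self])
  have inj : ∀ x y : E, x ^ p ^ (r : ℕ) = y ^ p ^ (r : ℕ) → x = y := fun x y e =>
    (iterateFrobenius E p r).injective e
  obtain ⟨t, ht⟩ : ∃ t, b r t ≠ 0 := by
    by_contra hcon
    simp only [not_exists, not_not] at hcon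
    have := hbz r 1
    simp only [hcon, zero_mul, sum_const_zero] at this
    exact one_ne_zero ((hG 1).1 (pow_eq_zero_iff (pow_pos pp.pos _).ne' |>.1 this.symm))
  have e2 : ∀ x, G x ^ p ^ (r : ℕ) = b r t * x ^ p ^ (t : ℕ) := fun x => by
    rw [← hbz, sum_eq_single t]
    · intro t' _ ht'
      rw [(hr t t' ht'.symm).resolve_left ht, zero_mul]
    · simp
  obtain ⟨e', he'⟩ := Finite.surjective_of_injective (f := fun x : E => x ^ p ^ (r : ℕ)) inj (e ^ p ^ (t : ℕ))
  refine ⟨e', fun x => inj _ _ ?_⟩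
  simp only at he'
  rw [e2, mul_pow e', e2, he', mul_pow]; ring

end Cfsg.Agent.Sg.P1

namespace Cfsg.Agent.Sg

open Module Cfsg.Agent.H1.C3a Cfsg.Agent.H8.L5f

/-- package P of S5636 -/
theorem vec_trans {F E V : Type*} [Field F] [Field E] [Algebra F E] [AddCommGroup V] [Module F V] [Module E V]
    [IsScalarTower F E V] [FiniteDimensional E V] [Fintype F] [Finite E] (h4 : 4 ≤ finrank F E)
    (hV : finrank E V = 1) (M : Subgroup (V ≃ₗ[F] V))
    (hM : ∀ k : Eˣ, Algebra.norm F (k : E) = 1 → mu F V k ∈ M) (hS : ∃ g ∈ M, ¬ Semi E g) (v w : V) (hv : v ≠ 0)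
    (hw : w ≠ 0) : ∃ g ∈ M, g v = w := by
  classical
  haveI := Fintype.ofFinite E
  by_contra hcon
  obtain ⟨g, hg, hs⟩ := hS
  apply hs
  let φ : E ≃ₗ[E] V := LinearEquiv.ofBijective (LinearMap.toSpanSingleton E V v)
    ⟨LinearMap.ker_eq_bot.1 (LinearMap.ker_toSpanSingleton E hv), fun y => exists_smul_eq_of_finrank_eq_one hV hv y⟩
  have φa : ∀ x, φ x = x • v := fun _ => rfl
  let ψ := φ.restrictScalars F
  set O : V → Prop := fun u => ∃ k ∈ M, k v = u with hO
  set h : F → F := fun y => if ∃ x : E, Algebra.norm F x = y ∧ O (φ x) then 1 else 0 with hh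
  have key : ∀ x : E, h (Algebra.norm F x) = if O (φ x) then 1 else 0 := fun x => by
    simp only [hh]
    congr 1
    refine propext ⟨fun ⟨x', e, k, hk, hk'⟩ => ?_, fun hx => ⟨x, rfl, hx⟩⟩
    have x'0 : x' ≠ 0 := by
      rintro rfl
      rw [map_zero, LinearEquiv.map_eq_zero_iff] at hk'
      exact hv hk'
    have n0 : Algebra.norm F x' ≠ 0 := Algebra.norm_ne_zero_iff.2 x'0
    have x0 : x ≠ 0 := Algebra.norm_ne_zero_iff.1 (e ▸ n0)
    refine ⟨mu F V (Units.mk0 (x / x') (div_ne_zero x0 x'0)) * k, mul_mem (hM _ ?_) hk, ?_⟩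
    · have : Algebra.norm F (x / x') * Algebra.norm F x' = Algebra.norm F x := by
        rw [← map_mul, div_mul_cancel₀ _ x'0]
      rw [← e] at this
      exact mul_right_cancel₀ n0 (this.trans (one_mul _).symm)
    · rw [LinearEquiv.mul_apply, hk', mu_apply, φa, φa, smul_smul, Units.val_mk0, div_mul_cancel₀ _ x'0]
  have Og : ∀ u, O (g u) ↔ O u := fun u =>
    ⟨fun ⟨k, hk, e⟩ => ⟨g⁻¹ * k, mul_mem (inv_mem hg) hk, by rw [LinearEquiv.mul_apply, e]; exact g.symm_apply_apply u⟩,
      fun ⟨k, hk, e⟩ => ⟨g * k, mul_mem hg hk, by rw [LinearEquiv.mul_apply, e]⟩⟩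
  intro e
  obtain ⟨e', he'⟩ := P1.semi h4 ((ψ.trans (g.trans ψ.symm) : E ≃ₗ[F] E) : E →ₗ[F] E)
    (fun x => LinearEquiv.map_eq_zero_iff _) h (a := Algebra.norm F (1 : E)) (a' := Algebra.norm F (φ.symm w))
    (by simp) (Algebra.norm_ne_zero_iff.2 (by simpa using hw)) (by
      rw [key, key, if_pos ⟨1, one_mem _, by simp [φa]⟩, if_neg (by simpa [hO] using hcon)]
      exact one_ne_zero) (fun x => by
      rw [key, key]
      congr 1
      exact propext (by rw [← Og (φ x)]; simp [ψ])) e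
  refine ⟨e', fun u => ?_⟩
  obtain ⟨x, rfl⟩ := φ.surjective u
  have := congrArg φ (he' x)
  rw [← map_smul φ e, smul_eq_mul]
  rw [← smul_eq_mul e', map_smul φ] at this
  simpa [ψ] using this

end Cfsg.Agent.Sg
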