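import Cfsg.Agent.Sg.R2

/-! A group transitive on vectors with a frame of reflections and a cyclic monomial map contains `SL`. -/

set_option autoImplicit false
set_option linter.unusedSectionVars false

namespace Cfsg.Agent.Sg

open Module Function Cfsg.Agent.H7 Cfsg.Agent.H5.CK

variable {F V ι : Type*} [Field F] [AddCommGroup V] [Module F V] [Fintype ι] {b : Basis ι F V}
  {K : Subgroup (V ≃ₗ[F] V)}

theorem no_polarity [Fintype F] [Finite V] (h3 : 3 ≤ finrank F V) (α : V → Dual F V)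
    (h1 : ∀ a c, α a c = 0 → α c a = 0) (h2 : ∀ a, α a a = 0 ↔ a = 0) : False := by
  classical
  have := Fintype.ofFinite V
  let N : Matrix V V F := fun a c => if α a c = 0 then 1 else 0
  have e : N ^ 2 = 0 := by
    ext a c
    have e1 := finrank_le_finrank_inf_ker (⊤ : Submodule F V) (α a)
    have e2 := finrank_le_finrank_inf_ker (⊤ ⊓ LinearMap.ker (α a)) (α c)
    have e3 := card_sub (F := F) (⊤ ⊓ LinearMap.ker (α a) ⊓ LinearMap.ker (α c))
    rw [finrank_top] at e1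
    obtain ⟨k, hk⟩ : ∃ k, finrank F ↥(⊤ ⊓ LinearMap.ker (α a) ⊓ LinearMap.ker (α c)) = k + 1 :=
      ⟨finrank F ↥(⊤ ⊓ LinearMap.ker (α a) ⊓ LinearMap.ker (α c)) - 1, by omega⟩
    have e4 := congrArg (Nat.cast : ℕ → F) e3
    rw [hk, pow_succ, Nat.cast_mul, FiniteField.cast_card_eq_zero, mul_zero, Nat.card_eq_fintype_card,
      Fintype.card_subtype, Finset.card_filter] at e4
    rw [sq, Matrix.mul_apply, Matrix.zero_apply, ← e4, Nat.cast_sum]
    refine Finset.sum_congr rfl fun j _ => ?_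
    have : α j c = 0 ↔ α c j = 0 := ⟨h1 _ _, h1 _ _⟩
    by_cases a1 : α a j = 0 <;> by_cases a2 : α c j = 0 <;> simp [N, a1, a2, this]
  have := (Matrix.isNilpotent_trace_of_isNilpotent ⟨2, e⟩).eq_zero
  simp only [Matrix.trace, Matrix.diag, N, h2] at this
  simp at this

theorem refl_symm {α : Dual F V} {a : V} {ζ : F} (z0 : ζ ≠ 0) (ha : α a = ζ - 1) {t : V ≃ₗ[F] V}
    (e : ∀ z, t z = z + α z • a) (z : V) : t.symm z = z - (ζ⁻¹ * α z) • a := by
  apply t.injective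
  rw [e (z - _), LinearEquiv.apply_symm_apply, map_sub, map_smul, ha, smul_eq_mul,
    show α z - ζ⁻¹ * α z * (ζ - 1) = ζ⁻¹ * α z by field_simp; ring, sub_add_cancel]

theorem exists_tv [Fintype F] [Finite V] (h3 : 3 ≤ finrank F V)
    (htr : ∀ v w : V, v ≠ 0 → w ≠ 0 → ∃ g ∈ K, g v = w) {ζ : F} (z0 : ζ ≠ 0) (z1 : ζ ≠ 1)
    {α₀ : Dual F V} {a₀ : V} (h0 : Has K α₀ a₀) (e0 : α₀ a₀ = ζ - 1) {v : V} (hv : v ≠ 0) :
    ∃ ξ : Dual F V, ξ ≠ 0 ∧ ξ v = 0 ∧ Has K ξ v := by
  classical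
  have z2 : ζ - 1 ≠ 0 := sub_ne_zero.2 z1
  have ha₀ : a₀ ≠ 0 := by rintro rfl; exact z2 (by simpa using e0.symm)
  by_contra hc
  have nt : ∀ (ξ : Dual F V) (w : V), w ≠ 0 → ξ w = 0 → Has K ξ w → ξ = 0 := fun ξ w hw e h => by
    by_contra h1
    obtain ⟨g, hg, rfl⟩ := htr w v hw hv
    refine hc ⟨_, fun e2 => h1 ?_, by simpa using e, h.conj hg⟩
    ext z
    simpa using LinearMap.congr_fun e2 (g z)
  have ex : ∀ a : V, ∃ α : Dual F V, (a = 0 → α = 0) ∧ (a ≠ 0 → Has K α a ∧ α a = ζ - 1) := fun a => by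
    by_cases ha : a = 0
    · exact ⟨0, fun _ => rfl, fun h => (h ha).elim⟩
    obtain ⟨g, hg, rfl⟩ := htr a₀ a ha₀ ha
    exact ⟨_, fun h => (ha h).elim, fun _ => ⟨h0.conj hg, by simpa using e0⟩⟩
  choose α a1 a2 using ex
  have un : ∀ (a : V) (β : Dual F V), a ≠ 0 → Has K β a → β a = ζ - 1 → β = α a := fun a β ha ⟨t, ht, e⟩ e' => by
    obtain ⟨⟨s, hs, f⟩, f'⟩ := a2 a ha
    refine sub_eq_zero.1 (nt _ a ha (by simp [e', f']) ⟨t * s⁻¹, K.mul_mem ht (K.inv_mem hs), fun z => ?_⟩)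
    change t (s.symm z) = _
    rw [refl_symm z0 f' f, e, map_sub, map_smul, e', LinearMap.sub_apply, smul_eq_mul,
      show β z - ζ⁻¹ * α a z * (ζ - 1) = ζ⁻¹ * α a z + (β z - α a z) by field_simp; ring, add_smul,
      ← add_assoc, sub_add_cancel]
  refine no_polarity h3 α (fun a c h => ?_) fun a => ⟨fun h => ?_, fun h => by simp [h]⟩
  · by_cases ha : a = 0
    · simp [ha]
    by_cases hc : c = 0
    · simp [a1 c hc]
    obtain ⟨⟨s, hs, f⟩, f'⟩ := a2 a ha
    have e1 : s.symm c = c := by rw [refl_symm z0 f' f, h]; simp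
    have e2 := (a2 c hc).1.conj (K.inv_mem hs)
    rw [show (s⁻¹ : V ≃ₗ[F] V) c = c from e1] at e2
    have e3 := LinearMap.congr_fun (un c _ hc e2 (by
      have : s c = c := by rw [f, h]; simp
      exact (congrArg (α c) this).trans (a2 c hc).2)) a
    change α c (s a) = α c a at e3
    rw [f, f', map_add, map_smul, add_eq_left, smul_eq_zero] at e3
    exact e3.resolve_left z2
  · by_contra ha
    exact z2 ((a2 a ha).2.symm.trans h)

section
variable {ζ : F} (hr : ∀ i, Has K ((ζ - 1) • b.coord i) (b i))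
include hr

theorem refl_left {ξ : Dual F V} {v : V} (h : Has K ξ v) (hv : ξ v = 0) {j : ι} (hj : b.coord j v = 0) :
    Has K (((ζ - 1) * ξ (b j)) • b.coord j) v := by
  obtain ⟨s, hs, f⟩ := hr j
  have e0 : s v = v := by rw [f, LinearMap.smul_apply, hj]; simp
  have e1 : (s⁻¹ : V ≃ₗ[F] V) v = v := s.symm_apply_eq.2 e0.symm
  have e2 := h.conj (K.inv_mem hs)
  rw [e1] at e2
  refine (e2.sub_left h ((congrArg ξ e0).trans hv) hv).congr fun z => ?_
  congr 1
  change ξ (s z) - ξ z = _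
  rw [f]; simp; ring

theorem refl_right {ξ : Dual F V} {v : V} (h : Has K ξ v) (hv : ξ v = 0) {j : ι} (hj : ξ (b j) = 0) :
    Has K (((ζ - 1) * b.coord j v) • ξ) (b j) := by
  obtain ⟨s, hs, f⟩ := hr j
  have e1 : ξ ∘ₗ (s.symm : V →ₗ[F] V) = ξ := by
    ext z
    obtain ⟨z, rfl⟩ := s.surjective z
    simp only [LinearMap.comp_apply, LinearEquiv.coe_coe, LinearEquiv.symm_apply_apply]
    rw [f]; simp [hj]
  have e2 := h.conj hs
  rw [e1] at e2
  refine (e2.sub_right h hv).congr fun z => ?_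
  rw [f]; simp [smul_smul, mul_comm]

end

theorem coord_ne {i j : ι} (h : i ≠ j) : b.coord j (b i) = 0 := by
  classical
  simp [Finsupp.single_apply, h]

theorem U_mul {i j k : ι} {c d : F} (h1 : Has K (c • b.coord j) (b i)) (h2 : Has K (d • b.coord k) (b j))
    (ij : i ≠ j) (jk : j ≠ k) (ik : i ≠ k) : Has K ((c * d) • b.coord k) (b i) :=
  (h1.comm_left h2 (by rw [LinearMap.smul_apply, coord_ne ij, smul_zero])
    (by rw [LinearMap.smul_apply, coord_ne jk, smul_zero])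
    (by rw [LinearMap.smul_apply, coord_ne ik, smul_zero])).congr fun z => by simp [mul_assoc]

theorem U_shift {σ : V ≃ₗ[F] V} (hσ : σ ∈ K) {τ : ι → ι} (t1 : Mn b σ τ) (inj : Injective τ) {i j : ι}
    {c : F} (hc : c ≠ 0) (h : Has K (c • b.coord j) (b i)) :
    ∃ d : F, d ≠ 0 ∧ Has K (d • b.coord (τ j)) (b (τ i)) := by
  classical
  choose a ha using t1
  have a0 : ∀ i, a i ≠ 0 := fun i => ne_of_eq_smul (b.ne_zero i) (ha i)
  have e : b.coord (τ j) ∘ₗ (σ : V →ₗ[F] V) = a j • b.coord j := b.ext fun k => by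
    by_cases hk : k = j <;> simp [ha, Finsupp.single_apply, inj.eq_iff, hk]
  refine ⟨c * a i * (a j)⁻¹, by simp [hc, a0], (h.conj hσ).congr fun z => ?_⟩
  obtain ⟨z, rfl⟩ := σ.surjective z
  have := LinearMap.congr_fun e z
  simp only [LinearMap.comp_apply, LinearEquiv.coe_coe, LinearMap.smul_apply, smul_eq_mul] at this
  simp only [LinearMap.comp_apply, LinearEquiv.coe_coe, LinearEquiv.symm_apply_apply, LinearMap.smul_apply,
    smul_eq_mul, this, ha, smul_smul]
  congr 1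
  field_simp [a0]

theorem all_has [Fintype F] [Finite V] {n : ℕ} (hn : n.Prime) (h4 : 4 ≤ n) (hι : Fintype.card ι = n)
    (htr : ∀ v w : V, v ≠ 0 → w ≠ 0 → ∃ g ∈ K, g v = w) {ζ : F} (z0 : ζ ≠ 0) (z1 : ζ ≠ 1)
    (hr : ∀ i, Has K ((ζ - 1) • b.coord i) (b i)) {σ : V ≃ₗ[F] V} (hσ : σ ∈ K) {τ : ι → ι}
    (t1 : Mn b σ τ) {k : ℕ} (t2 : ∀ i, τ^[n ^ k] i = i) (t3 : ∀ i, τ i ≠ i) (ξ : Dual F V) (v : V)
    (hv : ξ v = 0) : Has K ξ v := by
  classical
  have z2 : ζ - 1 ≠ 0 := sub_ne_zero.2 z1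
  have hu : (Set.univ : Set ι).ncard = n := by rw [Set.ncard_univ, Nat.card_eq_fintype_card, hι]
  have : Nonempty ι := Fintype.card_pos_iff.1 (by omega)
  obtain ⟨i₀⟩ := this
  have tv := fun v hv => exists_tv (by rw [finrank_eq_card_basis b]; omega) htr z0 z1 (hr i₀) (by simp)
    (v := v) hv
  have nz : ∀ ξ : Dual F V, ξ ≠ 0 → ∃ j, ξ (b j) ≠ 0 := fun ξ h => by
    by_contra hc
    push Not at hc
    exact h (b.ext hc)
  have inj : Injective τ := by
    obtain ⟨r, hr⟩ : ∃ r, n ^ k = r + 1 := ⟨n ^ k - 1, by have := pow_pos hn.pos k; omega⟩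
    intro i j e
    rw [← t2 i, ← t2 j, hr, iterate_succ_apply, iterate_succ_apply, e]
  have t4 : ∀ i j, ∃ m, τ^[m] i = j := fun i j =>
    cyc hn hu (Set.mapsTo_univ _ _) (Set.mem_univ _) (t2 i) (t3 i) (Set.mem_univ j)
  let r : ι → ι → Prop := fun i j => i = j ∨ i ≠ j ∧ ∃ c : F, c ≠ 0 ∧ Has K (c • b.coord j) (b i)
  have r1 : ∀ {i j l}, r i j → r j l → r i l := by
    rintro i j l (rfl | ⟨ij, c, hc, h1⟩) (rfl | ⟨jl, d, hd, h2⟩)
    · exact .inl rfl
    · exact .inr ⟨jl, d, hd, h2⟩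
    · exact .inr ⟨ij, c, hc, h1⟩
    · by_cases il : i = l
      · exact .inl il
      · exact .inr ⟨il, c * d, mul_ne_zero hc hd, U_mul h1 h2 ij jl il⟩
  have r2 : ∀ (m : ℕ) {i j}, r i j → r (τ^[m] i) (τ^[m] j) := fun m => by
    induction m with
    | zero => exact fun h => h
    | succ m ih =>
      rintro i j (rfl | ⟨ij, c, hc, h1⟩)
      · exact .inl rfl
      · exact ih (.inr ⟨inj.ne ij, U_shift hσ t1 inj hc h1⟩)
  have r3 : ∀ i j, r i j := by
    obtain ⟨ξ, x1, x2, x3⟩ := tv _ (b.ne_zero i₀)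
    obtain ⟨j, hj⟩ := nz ξ x1
    have ij : i₀ ≠ j := by rintro rfl; exact hj x2
    have a1 : r i₀ j := .inr ⟨ij, _, mul_ne_zero z2 hj, refl_left hr x3 x2 (coord_ne ij)⟩
    obtain ⟨s, rfl⟩ := t4 i₀ j
    have a2 : ∀ l, r i₀ l := fun l => by
      obtain ⟨m, rfl⟩ := cyc (f := τ^[s]) (k := k) hn hu (Set.mapsTo_univ _ _) (Set.mem_univ i₀) (by
        rw [← iterate_mul, mul_comm, iterate_mul]; exact iterate_fixed (t2 i₀) s) ij.symm (Set.mem_univ l)
      induction m with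
      | zero => exact .inl rfl
      | succ m ih =>
        refine r1 ih ?_
        rw [iterate_succ_apply, ← iterate_mul]
        exact r2 _ a1
    intro i l
    obtain ⟨m, rfl⟩ := t4 i₀ i
    obtain ⟨l, rfl⟩ := (Finite.injective_iff_surjective.1 (inj.iterate m)) l
    exact r2 m (a2 l)
  have r4 : ∀ {i j}, i ≠ j → ∃ c : F, c ≠ 0 ∧ Has K (c • b.coord j) (b i) := fun {i j} ij =>
    ((r3 i j).resolve_left ij).2
  have r5 : ∀ {i j}, i ≠ j → ∀ t : F, Has K (t • b.coord j) (b i) := fun {i j} ij t => by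
    by_cases ht : t = 0
    · simpa [ht] using has_zero_left (b i)
    obtain ⟨ξ, x1, x2, x3⟩ := tv (b i + t⁻¹ • b j) fun e => by
      have := congrArg (b.coord i) e
      rw [map_add, map_smul, coord_ne ij.symm] at this
      simp at this
    obtain ⟨m, hm⟩ := nz ξ x1
    obtain ⟨l, hl⟩ : ∃ l, l ∉ ({i, j, m} : Finset ι) := by
      by_contra hc
      push Not at hc
      have := Finset.card_le_three (a := i) (b := j) (c := m)
      rw [Finset.eq_univ_of_forall hc, Finset.card_univ] at this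
      omega
    simp only [Finset.mem_insert, Finset.mem_singleton, not_or, ← ne_eq] at hl
    obtain ⟨li, lj, lm⟩ := hl
    obtain ⟨u, hu, a1⟩ := r4 lm.symm
    have c0 : b.coord l (b i + t⁻¹ • b j) = 0 := by
      rw [map_add, map_smul, coord_ne li.symm, coord_ne lj.symm]; simp
    have a2 := x3.comm_left a1 x2 (by rw [LinearMap.smul_apply, coord_ne lm.symm, smul_zero])
      (by rw [LinearMap.smul_apply, c0, smul_zero])
    have c1 : (ξ (b m) • u • b.coord l) (b i + t⁻¹ • b j) = 0 := by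
      rw [LinearMap.smul_apply, LinearMap.smul_apply, c0]; simp
    have a3 := refl_right hr a2 c1 (j := i) (by
      rw [LinearMap.smul_apply, LinearMap.smul_apply, coord_ne li.symm]; simp)
    have a4 := refl_right hr a2 c1 (j := j) (by
      rw [LinearMap.smul_apply, LinearMap.smul_apply, coord_ne lj.symm]; simp)
    rw [map_add, map_smul, coord_ne ij.symm, smul_smul, smul_smul] at a3
    rw [map_add, map_smul, coord_ne ij, smul_smul, smul_smul] at a4
    simp only [Basis.coord_apply, Basis.repr_self, Finsupp.single_eq_same, smul_eq_mul, mul_zero, add_zero,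
      zero_add, mul_one] at a3 a4
    obtain ⟨w, hw, a5⟩ := r4 lj
    set c := (ζ - 1) * t⁻¹ * ξ (b m) * u with hc
    have hc0 : c ≠ 0 := by simp [hc, z2, ht, hm, hu]
    let S : ι → Set F := fun x => {s | Has K (s • b.coord x) (b i)}
    have b1 : (S l).ncard ≤ (S j).ncard := Set.ncard_le_ncard_of_injOn (· * w)
      (fun s hs => U_mul hs a5 li.symm lj ij) (mul_left_injective₀ hw).injOn
    have b2 : (· * c) '' S j = S l := Set.eq_of_subset_of_ncard_le (by
      rintro _ ⟨s, hs, rfl⟩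
      exact U_mul hs a4 ij lj.symm li.symm) (by
      rwa [Set.ncard_image_of_injective _ (mul_left_injective₀ hc0)])
    obtain ⟨s, hs, e⟩ := b2.ge a3
    have : s = t := by
      refine mul_right_cancel₀ hc0 (e.trans ?_)
      rw [hc]; field_simp
    exact this ▸ hs
  have r6 : b i₀ ∈ fullCenters K := mem_fullCenters.2 fun ξ hξ => by
    have : ∀ s : Finset ι, Has K (∑ j ∈ s, ξ (b j) • b.coord j) (b i₀) := fun s => by
      induction s using Finset.induction_on with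
      | empty => exact has_zero_left _
      | insert j s hj ih =>
        rw [Finset.sum_insert hj]
        by_cases e : i₀ = j
        · simpa [← e, hξ] using ih
        · exact (r5 e _).add_left ih (by rw [LinearMap.smul_apply, coord_ne e, smul_zero])
    refine (this Finset.univ).congr fun z => ?_
    congr 1
    conv_rhs => rw [← b.sum_repr z]
    simp [mul_comm]
  by_cases h0 : v = 0
  · exact h0 ▸ has_zero_right ξ
  obtain ⟨g, hg, rfl⟩ := htr _ v (b.ne_zero i₀) h0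
  exact mem_fullCenters.1 (fullCenters_apply r6 hg) ξ hv

open scoped LinearAlgebra.Projectivization in
/-- the case `n ^ 2 ∣ q - 1` -/
theorem FR [Fintype F] [Finite V] {n : ℕ} (hn : n.Prime) (h4 : 4 ≤ n) (hι : Fintype.card ι = n)
    (hP : n ∣ Nat.card (ℙ F V)) {M : Subgroup (V ≃ₗ[F] V)} (hdet : ∀ g ∈ M, LinearEquiv.det g = 1)
    (htr : ∀ v w : V, v ≠ 0 → w ≠ 0 → ∃ g ∈ M, g v = w) {φ : V ≃ₗ[F] V} (hφ : φ ∈ M) {l : ι → F}
    (h : ∀ i, φ (b i) = l i • b i) (hl : Injective l) {k : ℕ} (hk : φ ^ n ^ k = 1)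
    {κ : F} (h1 : κ ^ n ^ 2 = 1) (h2 : κ ^ n ≠ 1) (g : V ≃ₗ[F] V) (hg : LinearEquiv.det g = 1) :
    g ∈ M := by
  have : Finite (V ≃ₗ[F] V) := Finite.of_injective _ (DFunLike.coe_injective (F := V ≃ₗ[F] V))
  obtain ⟨i₀⟩ : Nonempty ι := Fintype.card_pos_iff.1 (by omega)
  obtain ⟨Q, R, H⟩ := exists_Fr hn hι hP htr hφ h hl hk i₀
  obtain ⟨ζ, z0, z1, hr⟩ := refl_of_Fr hn hι H hdet h1 h2
  obtain ⟨σ, hσ, hσ'⟩ := H.ne
  obtain ⟨τ, t1, ⟨k, t2⟩, t3⟩ := H.mono σ hσ hσ'
  exact mem_of_det_of_has (fun ξ v hv => has_of_withScal hv (all_has hn h4 hι (fun v w hv hw => by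
    obtain ⟨g, hg, e⟩ := htr v w hv hw
    exact ⟨g, le_withScal M hg, e⟩) z0 z1 hr (le_withScal M (H.le hσ)) t1 t2 t3 ξ _ (by simp [hv]))) g hg

end Cfsg.Agent.Sg
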