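import Cfsg.Agent.H8.L5c

/-!
Exceptional characters: the case of a subgroup of order `43` and weight `7`.
-/

set_option autoImplicit false
set_option linter.unusedSectionVars false

namespace Cfsg.Agent.Sg.U7f

open Cfsg MulAction Subgroup Finset Cfsg.Agent.H5.Zas1 Cfsg.Agent.H5.Char
  Cfsg.Agent.H5.TI Cfsg.Agent.H4.CAG Cfsg.Agent.H2.Tr Cfsg.Agent.H8.L5c
open scoped ComplexConjugate

theorem not_half : ¬ IsIntegral ℤ (2⁻¹ : ℂ) := fun h => by
  have e : (2⁻¹ : ℂ) = algebraMap ℚ ℂ 2⁻¹ := by simp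
  rw [e, isIntegral_algebraMap_iff (algebraMap ℚ ℂ).injective, IsIntegrallyClosed.isIntegral_iff] at h
  obtain ⟨y, hy⟩ := h
  have : (2 * y : ℚ) = 1 := by rw [show (y : ℚ) = 2⁻¹ from hy]; norm_num
  have : (2 * y : ℤ) = 1 := by exact_mod_cast this
  omega

theorem no_six {ι : Type*} [Fintype ι] (m : ι → ℕ) (a : ι → ℂ) (ha : ∀ i, a i ^ 43 = 1) :
    (∑ i, m i * a i) * (∑ i, m i * a i ^ 42) ≠ 6 := fun e => by
  let A := integralClosure ℤ ℂ
  let b : ι → A := fun i => ⟨a i, IsIntegral.of_pow (n := 43) (by omega) (by rw [ha]; exact isIntegral_one)⟩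
  have hb : ∀ i, b i ^ 43 = 1 := fun i => Subtype.ext (ha i)
  let I : Ideal A := Ideal.span {2}
  have h2 : ∀ y : A, 2 * y ≠ 1 := fun y hy => not_half (by
    have : (2 : ℂ) * y = 1 := congrArg Subtype.val hy
    rw [← eq_inv_of_mul_eq_one_right this]
    exact y.2)
  have : Nontrivial (A ⧸ I) := Ideal.Quotient.nontrivial_iff.2 fun h => by
    obtain ⟨y, hy⟩ := Ideal.mem_span_singleton'.1 (show (1 : A) ∈ I from h ▸ trivial)
    exact h2 y (by rw [mul_comm, hy])
  have : CharP (A ⧸ I) 2 := CharTwo.of_one_ne_zero_of_two_eq_zero one_ne_zero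
    (Ideal.Quotient.eq_zero_iff_mem.2 (Ideal.mem_span_singleton_self (2 : A)))
  let π := Ideal.Quotient.mk I
  let φ := iterateFrobenius (A ⧸ I) 2 7
  have hφ : ∀ y, φ y = y ^ 128 := fun y => rfl
  have e0 : (∑ i, (m i : A) * b i) * (∑ i, (m i : A) * b i ^ 42) = 6 := Subtype.ext (by
    simp only [MulMemClass.coe_mul, AddSubmonoidClass.coe_finset_sum, SubmonoidClass.coe_pow, SubringClass.coe_natCast]
    exact e)
  have e1 : φ (π (∑ i, m i * b i)) = π (∑ i, m i * b i ^ 42) := by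
    simp only [map_sum, map_mul, map_natCast]
    refine sum_congr rfl fun i _ => ?_
    rw [hφ, ← map_pow, show 128 = 43 * 2 + 42 from rfl, pow_add, pow_mul, hb, one_pow, one_mul]
  have e2 : φ (π (∑ i, m i * b i ^ 42)) = π (∑ i, m i * b i) := by
    simp only [map_sum, map_mul, map_natCast]
    refine sum_congr rfl fun i _ => ?_
    rw [hφ, ← map_pow, ← pow_mul, show 42 * 128 = 43 * 125 + 1 from rfl, pow_succ, pow_mul, hb, one_pow, one_mul]
  have e3 : π (∑ i, m i * b i) * π (∑ i, m i * b i ^ 42) = 0 := by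
    rw [← map_mul, e0]
    exact Ideal.Quotient.eq_zero_iff_mem.2 (Ideal.mem_span_singleton'.2 ⟨3, by norm_num⟩)
  have e4 : π (∑ i, m i * b i) = 0 := by
    generalize π (∑ i, m i * b i) = u at *
    rw [← e1, hφ] at e2 e3
    rw [← e2, hφ, ← pow_mul, show 128 * 128 = 1 + 128 + 16255 from rfl, pow_add, pow_add, pow_one, e3, zero_mul]
  have e5 : π (∑ i, m i * b i ^ 42) = 0 := by rw [← e1, e4, map_zero]
  obtain ⟨u, hu⟩ := Ideal.mem_span_singleton'.1 (Ideal.Quotient.eq_zero_iff_mem.1 e4)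
  obtain ⟨v, hv⟩ := Ideal.mem_span_singleton'.1 (Ideal.Quotient.eq_zero_iff_mem.1 e5)
  rw [← hu, ← hv] at e0
  refine h2 (u * v - 1) (mul_left_cancel₀ (two_ne_zero (α := A)) ?_)
  linear_combination e0

variable {G : Type*} [Group G] [Fintype G] {X : Subgroup G}

attribute [local instance] ftSub

variable (h : CA X)
include h

open Classical in
theorem all_flat7 (hN : ∀ K : Subgroup G, K.Normal → X ≤ K → K = ⊤) {n : Irr G → ℕ} {j : ℕ}
    (hn : ∀ ψ : Irr X, ∑ φ, n φ * mult φ ψ = j) (he : 1 < wt X) (h1 : wt X * (j + 1) + 1 < Nat.card X)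
    (h2 : wt X * wt X + 1 < Nat.card X ∨ wt X = 7 ∧ Nat.card X = 43) {χ : Irr G} (hχ : n χ ≠ 0) : Flat X χ := by
  by_contra hF
  obtain ⟨ψ₀, h0, s, hs, hβ⟩ := special h hF
  have : Nonempty (Irr G) := ⟨χ⟩
  choose! β hβ1 hβ2 using hβ
  let D : Finset (Irr X) := univ.filter fun ψ' => ψ' ≠ triv X ∧ ¬ h.isTI.Rel ψ' ψ₀
  have hD : ∀ ψ', ψ' ∈ D ↔ ψ' ≠ triv X ∧ ¬ h.isTI.Rel ψ' ψ₀ := fun ψ' => by simp [D]
  have hs0 : s ≠ 0 := by rintro rfl; simp at hs
  have a1 : ∀ ψ' ∈ D, n (β ψ') = n χ := fun ψ' hψ' => by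
    obtain ⟨b1, b2⟩ := (hD _).1 hψ'
    have e : ∑ φ, (n φ : ℤ) * ((mult φ ψ₀ : ℤ) - mult φ ψ') = 0 := by
      simp only [mul_sub, sum_sub_distrib]
      exact_mod_cast sub_eq_zero.2 (congrArg (Nat.cast : ℕ → ℤ) ((hn ψ₀).trans (hn ψ').symm))
    simp only [hβ2 ψ' b1 b2, mul_sub, sum_sub_distrib, mul_ite, mul_zero, mul_one, sum_ite_eq', mem_univ,
      if_true] at e
    have : (n χ - n (β ψ') : ℤ) * s = 0 := by linear_combination e
    have := (mul_eq_zero.1 this).resolve_right hs0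
    omega
  have a2 : ∀ ψ' ∈ D, ∀ ψ, (mult χ ψ : ℤ) - mult (β ψ') ψ =
      s * ((if h.isTI.Rel ψ ψ₀ then 1 else 0) - (if h.isTI.Rel ψ ψ' then 1 else 0)) := fun ψ' hψ' ψ => by
    obtain ⟨b1, b2⟩ := (hD _).1 hψ'
    have e := gram2 h ψ₀ ψ' (ψ := ψ) h0 b1
    simp only [hβ2 ψ' b1 b2, mul_sub, sub_mul, sum_sub_distrib, mul_ite, ite_mul, zero_mul, mul_zero,
      mul_one, sum_ite_eq', mem_univ, if_true] at e
    rw [← e]
    linear_combination (-(mult χ ψ : ℤ) + mult (β ψ') ψ) * hs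
  have a3 : D.card + wt X + 1 = Nat.card X := by
    rw [← card_rel h h0, ← card_irr_comm h.comm', ← card_univ,
      ← card_filter_add_card_filter_not (s := univ) (fun ψ' => h.isTI.Rel ψ' ψ₀),
      ← card_filter_add_card_filter_not (s := univ.filter fun ψ' => ¬ h.isTI.Rel ψ' ψ₀)
        (fun ψ' => ψ' = triv X), filter_filter, filter_filter]
    rw [show (univ.filter fun ψ' => ¬ h.isTI.Rel ψ' ψ₀ ∧ ψ' = triv X) = {triv X} by
      ext μ
      simp only [mem_filter, mem_univ, true_and, mem_singleton]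
      exact ⟨fun a => a.2, fun a => ⟨fun r => rel_ne_triv h h0 r a, a⟩⟩]
    simp only [D, and_comm, card_singleton]
    ring
  have a4 : j < (D.image β).card := by
    have := card_le_mul_card_image (f := β) D (wt X) fun b hb => by
      obtain ⟨ψ', hψ', rfl⟩ := mem_image.1 hb
      obtain ⟨b1, b2⟩ := (hD _).1 hψ'
      rw [← card_rel h b1]
      refine card_le_card fun μ hμ => ?_
      obtain ⟨c1, c2⟩ := mem_filter.1 hμ
      have e1 := a2 μ c1 μ
      have e2 := a2 ψ' hψ' μ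
      rw [c2, e2, if_pos (IsTI.Rel.refl _ _)] at e1
      have e3 := mul_left_cancel₀ hs0 e1
      simp only [mem_filter, mem_univ, true_and]
      by_contra hr
      rw [if_neg hr] at e3
      omega
    by_contra hc
    have := Nat.mul_le_mul_left (wt X) (not_lt.1 hc)
    rw [mul_add] at h1
    omega
  have a5 : ∀ (ψ : Irr X) (m : ℕ), (∀ ψ' ∈ D, mult (β ψ') ψ = m) → m = 0 := fun ψ m hm => by
    have e1 : ∑ φ ∈ D.image β, n φ * mult φ ψ ≤ j := hn ψ ▸ sum_le_sum_of_subset (subset_univ _)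
    rw [sum_congr rfl (g := fun _ => n χ * m) fun b hb => by
      obtain ⟨ψ', hψ', rfl⟩ := mem_image.1 hb
      rw [a1 _ hψ', hm _ hψ'], sum_const, smul_eq_mul] at e1
    by_contra hm0
    have := Nat.mul_le_mul_left (D.image β).card
      (Nat.one_le_iff_ne_zero.2 (mul_ne_zero hχ hm0))
    omega
  obtain ⟨ψ₁, hψ₁⟩ : D.Nonempty := by
    rw [← image_nonempty (f := β), ← card_pos]; omega
  have a6 : mult χ (triv X) = 0 := a5 (triv X) _ fun ψ' hψ' => by
    have := a2 ψ' hψ' (triv X)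
    rw [if_neg fun r => rel_ne_triv h h0 r rfl, if_neg fun r => rel_ne_triv h ((hD _).1 hψ').1 r rfl] at this
    omega
  have a7 : mult (β ψ₁) ψ₀ = 0 := a5 ψ₀ _ fun ψ' hψ' => by
    have e1 := a2 ψ' hψ' ψ₀
    have e2 := a2 ψ₁ hψ₁ ψ₀
    rw [if_pos (IsTI.Rel.refl _ _), if_neg fun r => ((hD _).1 hψ').2 r.symm] at e1
    rw [if_pos (IsTI.Rel.refl _ _), if_neg fun r => ((hD _).1 hψ₁).2 r.symm] at e2
    omega
  have a8 : s = 1 ∧ mult χ ψ₀ = 1 := by
    have e2 := a2 ψ₁ hψ₁ ψ₀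
    rw [if_pos (IsTI.Rel.refl _ _), if_neg fun r => ((hD _).1 hψ₁).2 r.symm, a7] at e2
    rcases mul_self_eq_one_iff.1 hs with rfl | rfl <;> omega
  obtain ⟨rfl, a9⟩ := a8
  have a10 : ∀ ψ, mult χ ψ = if h.isTI.Rel ψ ψ₀ then 1 else 0 := fun ψ => by
    split_ifs with r
    · rw [r.mult_eq, a9]
    by_cases ht : ψ = triv X
    · rw [ht, a6]
    have := hβ2 ψ ht r χ
    rw [if_pos rfl, if_neg (hβ1 ψ ht r).symm, a9] at this
    omega
  have a11 : deg χ = wt X := by
    rw [deg_sum h, ← card_rel h h0, card_filter]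
    exact sum_congr rfl fun ψ _ => a10 ψ
  -- the product with the conjugate character
  obtain ⟨n', hn'⟩ := ch_mul_inv χ
  have b1 : n' (triv G) = 1 := by
    have := hn'.inner (triv G)
    have e := inner_irr χ χ
    rw [if_pos rfl] at e
    simp only [classInner, conj_irr, triv_apply, map_one, mul_one] at this e
    exact_mod_cast this.symm.trans e
  have b2 : ∑ φ, n' φ * mult φ (triv X) = wt X := by
    have := (hn'.res X).inner (triv X)
    have e := (ch_res χ X).norm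
    simp only [classInner, conj_irr, triv_apply, map_one, mul_one] at this e
    have e2 : ∑ φ, n' φ * mult φ (triv X) = ∑ ψ : Irr X, mult χ ψ * mult χ ψ := by
      exact_mod_cast this.symm.trans e
    rw [e2, ← card_rel h h0, card_filter]
    exact sum_congr rfl fun ψ _ => by rw [a10]; split_ifs <;> rfl
  have b3 : ∑ φ, n' φ * deg φ = wt X * wt X := by
    have := hn'.one
    simp only [inv_one, deg_eq, a11] at this
    exact_mod_cast this.symm
  obtain ⟨φ, c1, c2⟩ : ∃ φ, φ ≠ triv G ∧ n' φ * mult φ (triv X) ≠ 0 := by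
    by_contra hc
    push Not at hc
    rw [sum_eq_single (triv G) (fun φ _ a => hc φ a) (by simp), b1, mult_triv, if_pos rfl] at b2
    omega
  have c3 : Flat X φ := by
    have d1 : ∀ ψ, ψ ≠ triv X → mult φ ψ = mult φ ψ₀ := fun ψ ht => by
      by_cases r : h.isTI.Rel ψ ψ₀
      · exact r.mult_eq φ
      have e := hβ2 ψ ht r φ
      have e1 : φ ≠ χ := by rintro rfl; exact c2 (by rw [a6, mul_zero])
      have e2 : φ ≠ β ψ := by
        rintro rfl
        have := a2 ψ ((hD _).2 ⟨ht, r⟩) (triv X)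
        rw [if_neg fun r => rel_ne_triv h h0 r rfl, if_neg fun r => rel_ne_triv h ht r rfl, a6] at this
        exact c2 (by rw [show mult (β ψ) (triv X) = 0 by omega, mul_zero])
      rw [if_neg e1, if_neg e2] at e
      omega
    exact fun ψ ψ' a b => (d1 ψ a).trans (d1 ψ' b).symm
  have c4 := c3.deg_eq h h0
  have c5 : mult φ ψ₀ ≠ 0 := fun e => c1 (c3.eq_triv h hN h0 e)
  have c6 : n' φ * deg φ ≤ wt X * wt X := b3 ▸ single_le_sum (f := fun φ => n' φ * deg φ)
    (fun _ _ => Nat.zero_le _) (mem_univ φ)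
  have c7 := Nat.mul_le_mul_right (deg φ) (Nat.one_le_iff_ne_zero.2 (mul_ne_zero_iff.1 c2).1)
  have c8 := Nat.mul_le_mul_right (Nat.card X - 1) (Nat.one_le_iff_ne_zero.2 c5)
  rcases h2 with h2 | ⟨w7, n43⟩
  · omega
  obtain ⟨x, x1⟩ : ∃ x : X, x ≠ 1 := by
    have : Nontrivial X := Finite.one_lt_card_iff_nontrivial.1 (by omega)
    exact exists_ne 1
  have r := hn'.res X
  have r1 : ∀ ψ ∈ univ.erase (triv X), 1 ≤ ∑ φ, n' φ * mult φ ψ := fun ψ hψ =>
    (Nat.one_le_iff_ne_zero.2 (mul_ne_zero (mul_ne_zero_iff.1 c2).1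
      (by rwa [c3 ψ ψ₀ (ne_of_mem_erase hψ) h0]))).trans
      (single_le_sum (f := fun φ => n' φ * mult φ ψ) (fun _ _ => Nat.zero_le _) (mem_univ φ))
  have r2 : ∑ ψ ∈ univ.erase (triv X), 1 = ∑ ψ ∈ univ.erase (triv X), ∑ φ, n' φ * mult φ ψ := by
    have := r.one
    simp only [deg_one h, mul_one, OneMemClass.coe_one, inv_one, deg_eq, a11, w7] at this
    rw [← add_sum_erase _ _ (mem_univ (triv X)), b2, w7] at this
    rw [sum_const, card_erase_of_mem (mem_univ _), card_univ, card_irr_comm h.comm', n43]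
    have e : 7 * 7 = 7 + ∑ ψ ∈ univ.erase (triv X), ∑ φ, n' φ * mult φ ψ := by exact_mod_cast this
    simp only [smul_eq_mul]
    omega
  have r3 := (sum_eq_sum_iff_of_le r1).1 r2
  have r4 : ∑ ψ : Irr X, ψ.1 x = 0 := by
    have := column (1 : X) x
    rw [if_neg (by simpa [eq_comm] using x1)] at this
    simpa [deg_eq, deg_one h] using this
  have r5 : χ.1 x * χ.1 (x⁻¹ : X) = 6 := by
    have := r x
    beta_reduce at this
    rw [← add_sum_erase _ _ (mem_univ (triv X)), b2, w7, sum_congr rfl fun ψ hψ => by rw [← r3 ψ hψ]] at this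
    rw [← add_sum_erase _ _ (mem_univ (triv X))] at r4
    simp only [triv_apply, Nat.cast_one, one_mul, mul_one, Nat.cast_ofNat] at this r4
    rw [Subgroup.coe_inv, this]
    linear_combination r4
  rw [res_expand, res_expand] at r5
  refine no_six (mult χ) (fun ψ : Irr X => ψ.1 x) (fun ψ => ?_) (r5 ▸ ?_)
  · have := (hom ψ (deg_one h ψ)).map_pow x 43
    rw [← n43, pow_card_eq_one', map_one, n43] at this
    exact this.symm
  · congr 1
    refine sum_congr rfl fun ψ _ => ?_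
    have := (hom ψ (deg_one h ψ)).map_pow x 42
    rw [show x ^ 42 = x⁻¹ by rw [eq_inv_iff_mul_eq_one, ← pow_succ, show 42 + 1 = Nat.card X from n43.symm,
      pow_card_eq_one']] at this
    exact congrArg _ this.symm

end Cfsg.Agent.Sg.U7f
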