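import Cfsg.Agent.H8.U5d
import Cfsg.Agent.H9.U7Defs

/-!
Overgroups of the Singer normaliser in `SU₇(2)`: the orbits on vectors.
-/

set_option autoImplicit false
set_option linter.unusedSectionVars false

namespace Cfsg.Agent.Sg.U7

open Finset Module Cfsg.Agent.Form Cfsg.Agent.H6.SU Cfsg.Agent.H7 Cfsg.Agent.H8.U5 Cfsg.Agent.H9.U7
open scoped Classical

theorem loe (k : ℕ) : ∀ x y m : ℤ, Odd m → 7 * (x ^ 2 + x * y + y ^ 2) ≠ 2 * 4 ^ k * m := by
  have key : ∀ x y m : ℤ, 7 * (x ^ 2 + x * y + y ^ 2) = 2 * m → ∃ a b, x = 2 * a ∧ y = 2 * b := fun x y m e => by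
    rcases Int.even_or_odd' x with ⟨a, rfl | rfl⟩ <;> rcases Int.even_or_odd' y with ⟨b, rfl | rfl⟩
    · exact ⟨a, b, rfl, rfl⟩
    all_goals
      exfalso
      ring_nf at e
      omega
  induction k with
  | zero =>
    rintro x y _ ⟨m, rfl⟩ e
    obtain ⟨a, b, rfl, rfl⟩ := key x y _ (by simpa using e)
    ring_nf at e
    omega
  | succ k ih =>
    intro x y m hm e
    obtain ⟨a, b, rfl, rfl⟩ := key x y (4 ^ (k + 1) * m) (by rw [e]; ring)
    exact ih a b m hm (by rw [pow_succ 4 k] at e; linarith)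

theorem no_sol {α β γ : ℤ} (h0 : 0 < α + β + γ) (h1 : α + β + γ < 192)
    (h : 63 * (α ^ 2 + β ^ 2 + γ ^ 2) = (α + β + γ) * (12288 - 43 * (α + β + γ))) : False := by
  obtain ⟨s, hs⟩ : (3 : ℤ) ∣ α + β + γ := Int.prime_three.dvd_of_dvd_pow (n := 2)
    ⟨4096 * (α + β + γ) - 21 * (α ^ 2 + β ^ 2 + γ ^ 2) - 14 * (α + β + γ) ^ 2, by linear_combination h⟩
  have e : 7 * ((α - β) ^ 2 + (α - β) * (β - γ) + (β - γ) ^ 2) = 96 * (s * (64 - s)) := by
    have : γ = 3 * s - α - β := by linear_combination hs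
    subst this
    linarith
  have a : 0 < s := by omega
  have b : s < 64 := by omega
  lift s to ℕ using a.le
  obtain ⟨j, u, hu, rfl⟩ := Nat.exists_eq_two_pow_mul_odd (n := s) (by omega)
  have hj : j < 6 := by
    by_contra hc
    have := Nat.pow_le_pow_right two_pos (not_lt.1 hc)
    have := Nat.le_mul_of_pos_right (2 ^ j) hu.pos
    omega
  refine loe (j + 2) _ _ (3 * u * (2 * 2 ^ (5 - j) - u)) ?_ (e.trans ?_)
  · exact ((by decide : Odd (3 : ℤ)).mul hu.natCast).mul ((even_two_mul _).sub_odd hu.natCast)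
  · interval_cases j <;> push_cast <;> ring

theorem three {ι : Type*} (I : Finset ι) (f : ι → ℤ) {m : ℕ} (hm : 0 < m) (hI : I.card = 3 * m)
    (h : ∀ z, m ∣ (I.filter fun i => f i = z).card) :
    ∃ α β γ : ℤ, ∑ i ∈ I, f i = m * (α + β + γ) ∧ ∑ i ∈ I, f i ^ 2 = m * (α ^ 2 + β ^ 2 + γ ^ 2) := by
  choose k hk using h
  let s : Multiset ℤ := ∑ z ∈ I.image f, Multiset.replicate (k z) z
  have key : ∀ g : ℤ → ℤ, ∑ i ∈ I, g (f i) = m * (s.map g).sum := fun g => by
    rw [sum_comp g f]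
    rw [show (s.map g).sum = _ from map_sum (Multiset.sumAddMonoidHom.comp (Multiset.mapAddMonoidHom g)) _ _]
    simp [mul_sum, hk, mul_assoc]
  have c := key fun _ => 1
  simp only [sum_const, hI, Multiset.map_const', Multiset.sum_replicate, nsmul_eq_mul, mul_one] at c
  obtain ⟨α, β, γ, e⟩ := Multiset.card_eq_three.1 (show s.card = 3 from
    Nat.eq_of_mul_eq_mul_left hm (by rw [mul_comm m 3]; exact_mod_cast c.symm))
  refine ⟨α, β, γ, (key id).trans ?_, (key (· ^ 2)).trans ?_⟩ <;> simp [e, add_assoc]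

variable {F : Type*} [Field F] [Fintype F] {σ : F →+* F} {hσ : ∀ a, σ (σ a) = a}
  {V : Type*} [AddCommGroup V] [Module F V] [Fintype V] {S : PQ (FP.unit σ hσ) V} {χ : AddChar F ℂ}
  {M : Subgroup (V ≃ₗ[F] V)}

theorem orb_symm {v w : V} (h : w ∈ Orb σ M v) : v ∈ Orb σ M w := by
  obtain ⟨g, hg, c, hc, rfl⟩ := h
  refine ⟨g⁻¹, M.inv_mem hg, σ c, ?_, ?_⟩
  · have e := congrArg σ hc
    rwa [map_mul, map_one] at e
  · simp [smul_smul, mul_comm (σ c), hc]

theorem orb_trans {u v w : V} (h : w ∈ Orb σ M v) (h' : u ∈ Orb σ M w) : u ∈ Orb σ M v := by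
  obtain ⟨g, hg, c, hc, rfl⟩ := h'
  exact orb_smul hc (orb_map hg h)

/-- the size of an orbit -/
noncomputable def osz (σ : F →+* F) (M : Subgroup (V ≃ₗ[F] V)) (v : V) : ℕ := (univ.filter (· ∈ Orb σ M v)).card

theorem dvd_inv {m : ℕ} (A : Finset V) (h : ∀ v ∈ A, m ∣ osz σ M v ∧ ∀ w ∈ Orb σ M v, w ∈ A) : m ∣ A.card := by
  rw [card_eq_sum_card_image (Orb σ M)]
  refine dvd_sum fun B hB => ?_
  obtain ⟨v, hv, rfl⟩ := mem_image.1 hB
  refine (h v hv).1.trans (Eq.dvd (congrArg card (Eq.symm ?_)))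
  ext w
  simp only [mem_filter, mem_univ, true_and]
  exact ⟨fun e => e.2 ▸ self_orb w, fun e => ⟨(h v hv).2 w e,
    Set.ext fun u => ⟨orb_trans e, orb_trans (orb_symm e)⟩⟩⟩

/-- the Fourier transform of an orbit -/
noncomputable def GG (S : PQ (FP.unit σ hσ) V) (M : Subgroup (V ≃ₗ[F] V)) (v w : V) : ℤ :=
  nw S M v w 0 - nw S M v w 1

theorem GG_zero (v : V) : GG S M v 0 = osz σ M v := by simp [GG, nw, osz]

variable (h : Un7 S 2)
include h

theorem cardF : Fintype.card F = 4 := by rw [← Nat.card_eq_fintype_card, h.card]; rfl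

theorem nrm {y : F} (hy : y ≠ 0) : y * σ y = 1 := by
  have := FiniteField.pow_card_sub_one_eq_one y hy
  rw [cardF h] at this
  rw [h.pow, ← this]
  ring

theorem two0 : (2 : F) = 0 := by
  have := FiniteField.cast_card_eq_zero F
  rw [cardF h] at this
  exact mul_self_eq_zero.1 (by rw [← this]; norm_num)

theorem n01 (v : V) (hv : S.B v v ≠ 0) : S.B v v = 1 := by
  have := Bs S v v
  rw [h.pow] at this
  exact mul_left_cancel₀ hv (by rw [mul_one, ← sq, this])

theorem cardV : Fintype.card V = 16384 := by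
  rw [← Nat.card_eq_fintype_card, Module.natCard_eq_pow_finrank (K := F), h.card, h.dim]
  rfl

theorem GG_sum (L : Finset F) (h0 : 0 ∈ L) (h1 : ∑ y ∈ L, χ y = 0) (v w : V) :
    ∑ y ∈ L, nw S M v w y * χ y = GG S M v w := by
  rw [← add_sum_erase _ _ h0] at h1 ⊢
  rw [sum_congr rfl fun y hy => by rw [nw_rot v w (y' := 1) (by rw [nrm h (ne_of_mem_erase hy)]; simp)], ← mul_sum,
    eq_neg_of_add_eq_zero_right h1]
  simp [GG, sub_eq_add_neg]

theorem GG_orb (hM : M ≤ S.isom) (v : V) {w u : V} (hu : u ∈ Orb σ M w) : GG S M v u = GG S M v w := by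
  obtain ⟨g, hg, c, hc, rfl⟩ := hu
  have c0 := left_ne_zero_of_mul_eq_one hc
  have key : ∀ y, nw S M v (g w) y = nw S M v w y := fun y => (card_bij' (fun u _ => g u) (fun u _ => g⁻¹ u)
    (fun u hu => by simpa [PQ.B_isom (hM hg)] using And.intro (orb_map hg (mem_filter.1 hu).2.1) (mem_filter.1 hu).2.2)
    (fun u hu => by
      have := mem_filter.1 hu
      refine mem_filter.2 ⟨mem_univ _, orb_map (M.inv_mem hg) this.2.1, ?_⟩
      rw [← PQ.B_isom (hM hg), ← this.2.2]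
      simp) (by simp) (by simp)).symm
  rw [GG, GG, ← key, ← key, ← nw_smul v (g w) c0 0, ← nw_smul v (g w) c0 1, mul_zero,
    nw_rot v (c • g w) (y := σ c * 1) (y' := 1) (by rw [nrm h (by simpa using c0)]; simp)]

variable (H : Wd S 2 χ)
include H

theorem chi1 : χ 1 = -1 := by
  obtain ⟨y, y1, y2⟩ := H.adm
  have y0 : y ≠ 0 := by rintro rfl; simp at y2
  obtain rfl : y = 1 := by
    rw [h.pow] at y1
    exact mul_left_cancel₀ y0 (by linear_combination y1 - y * two0 h)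
  refine (mul_self_eq_one_iff.1 ?_).resolve_left y2
  rw [← AddChar.map_add_eq_mul, one_add_one_eq_two, two0 h, AddChar.map_zero_eq_one]

theorem sum_chi (x : V) : ∑ w, χ (S.B x w) = if x = 0 then 16384 else 0 := by
  split_ifs with hx
  · simp [hx, cardV h]
  obtain ⟨w, hw⟩ := h.nd.exists_eq hx 1
  have e := Equiv.sum_comp (Equiv.addRight w) fun u => χ (S.B x u)
  simp only [Equiv.coe_addRight, PQ.B_add_right, AddChar.map_add_eq_mul, ← Bs S w x, hw, map_one, chi1 h H,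
    ← sum_mul] at e
  linear_combination -e / 2

theorem GG_eq (v w : V) : (GG S M v w : ℂ) = ∑ u with u ∈ Orb σ M v, χ (S.B u w) := by
  rw [sum_nw, GG_sum h univ (mem_univ _) (AddChar.sum_eq_zero_iff_ne_zero.2 fun e => by
    have := chi1 h H
    rw [e, AddChar.zero_apply] at this
    norm_num at this)]

theorem pars {v : V} (hv : v ≠ 0) : ∑ w, GG S M v w = 0 ∧ ∑ w, GG S M v w ^ 2 = 16384 * osz σ M v := by
  have h0 : ∀ u ∈ univ.filter (· ∈ Orb σ M v), u ≠ 0 := fun u hu e => by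
    obtain ⟨g, -, c, -, e'⟩ := orb_symm (mem_filter.1 hu).2
    simp [e, hv] at e'
  constructor
  · apply Int.cast_injective (α := ℂ)
    push_cast
    simp only [GG_eq h H]
    rw [sum_comm]
    exact sum_eq_zero fun u hu => by rw [sum_chi h H, if_neg (h0 u hu)]
  · apply Int.cast_injective (α := ℂ)
    push_cast
    simp only [GG_eq h H, sq, sum_mul_sum, ← AddChar.map_add_eq_mul, ← PQ.B_add_left]
    rw [sum_comm, osz, card_eq_sum_ones, Nat.cast_sum, mul_sum]
    refine sum_congr rfl fun u hu => ?_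
    rw [sum_comm]
    simp only [sum_chi h H, add_eq_zero_iff_neg_eq, sum_ite_eq]
    rw [if_pos (mem_filter.2 ⟨mem_univ _, by simpa using orb_smul (c := -1) (by simp) (mem_filter.1 hu).2⟩)]
    simp

theorem e1_ap (w : V) : ee H 1 w = (if S.B w w = 0 then -1 / 192 else 0) + if w = 0 then 1 / 3 else 0 := by
  rw [ee_ap, EE_one H _ (Bs S w w), h.dim]
  norm_num

omit h H in
theorem split {R : Type*} [AddCommMonoid R] (f : V → R) : ∑ w, f w = f 0 +
    ∑ w with w ≠ 0 ∧ S.B w w = 0, f w + ∑ w with S.B w w ≠ 0, f w := by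
  rw [← sum_filter_add_sum_filter_not univ (fun w => S.B w w = 0), ← add_sum_erase _ _ (a := 0) (by simp)]
  congr 3
  ext w
  simp

theorem cardI : (univ.filter fun w : V => w ≠ 0 ∧ S.B w w = 0).card = 8127 := by
  have e := congrFun (ee_mul H 1 1) 0
  rw [if_pos rfl, mul_ap, split (S := S), sum_congr rfl (g := fun _ => 1 / 36864) fun w hw => by
    have := (mem_filter.1 hw).2
    simp [e1_ap h H, this, bi_f]
    norm_num, sum_eq_zero (s := univ.filter fun w => S.B w w ≠ 0) fun w hw => by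
      have := (mem_filter.1 hw).2
      rw [e1_ap h H, if_neg this, if_neg (by rintro rfl; simp at this)]
      simp] at e
  simp only [e1_ap h H, bi_f, sub_zero, PQ.B_zero_left, if_true, AddChar.map_zero_eq_one, sum_const, nsmul_eq_mul] at e
  apply Nat.cast_injective (R := ℂ)
  linear_combination 36864 * e

theorem cardN : (univ.filter fun w : V => S.B w w ≠ 0).card = 8256 := by
  have e := split (S := S) fun _ => 1
  simp only [sum_const, card_univ, cardV h, cardI h H, smul_eq_mul] at e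
  omega

variable (hM : M ≤ S.isom) (hs : Sc H M 1)
include hM hs

theorem e0 (v : V) : ∃ s : ℂ, ∀ w, S.B w w = S.B v v →
    64 * ind H M v w - χ (-S.B v v) * GG S M v w = 192 * s * ee H 1 w := by
  obtain ⟨s, hs⟩ := hs v
  refine ⟨s, fun w hw => ?_⟩
  have e := congrFun hs w
  rw [ind_ee H hM, smul_ap, h.dim, sum_congr rfl fun y _ => by
    rw [EE_one H _ (by simp [Bs, hσ, add_comm]), hw, ← two_mul, two0 h, zero_mul, zero_sub]] at e
  simp only [neg_eq_zero, ite_mul, zero_mul, mul_ite, mul_zero, ← sum_filter, sub_eq_add_neg, AddChar.map_add_eq_mul,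
    mul_left_comm (nw S M v w _ : ℂ), ← mul_sum] at e
  rw [← GG_sum h _ (by simp) (H.fd.sumL H.adm 0), mul_sum,
    sum_congr rfl fun y _ => show _ = χ y * (nw S M v w y * χ (-S.B v v)) by ring]
  push_cast at e
  linear_combination 192 * e

theorem GG_N {v w : V} (hv : S.B v v ≠ 0) (hw : S.B w w ≠ 0) :
    GG S M v w = if w ∈ Orb σ M v then -64 else 0 := by
  obtain ⟨s, e⟩ := e0 h H hM hs v
  have e := e w (by rw [n01 h v hv, n01 h w hw])
  rw [e1_ap h H, if_neg hw, if_neg (by rintro rfl; simp at hw), n01 h v hv, AddChar.map_neg_eq_inv, chi1 h H, ind] at e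
  apply Int.cast_injective (α := ℂ)
  split_ifs at e ⊢ <;> push_cast <;> linear_combination e

theorem GG_I {v : V} (v0 : v ≠ 0) (hv : S.B v v = 0) : ∃ j : ℤ, osz σ M v = 63 * j ∧
    ∀ w, w ≠ 0 → S.B w w = 0 → GG S M v w = (if w ∈ Orb σ M v then 64 else 0) - j := by
  obtain ⟨s, e⟩ := e0 h H hM hs v
  have e1 := e 0 (by simp [hv])
  have e2 : ∀ w, w ≠ 0 → S.B w w = 0 → (GG S M v w : ℂ) = (if w ∈ Orb σ M v then 64 else 0) + s := fun w w0 hw => by
    have := e w (hw.trans hv.symm)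
    rw [e1_ap h H, if_pos hw, if_neg w0, hv, neg_zero, AddChar.map_zero_eq_one, ind] at this
    split_ifs at this ⊢ <;> linear_combination -this
  have e3 := e2 v v0 hv
  rw [if_pos (self_orb v)] at e3
  rw [e1_ap h H, hv, neg_zero, AddChar.map_zero_eq_one, ind, GG_zero, if_neg fun e => by
    obtain ⟨g, -, c, -, e'⟩ := orb_symm e
    simp [v0] at e'] at e1
  simp only [PQ.B_zero_left, if_true] at e1
  refine ⟨64 - GG S M v v, Int.cast_injective (α := ℂ) ?_, fun w w0 hw => Int.cast_injective (α := ℂ) ?_⟩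
  · push_cast at e1 ⊢
    linear_combination 63 * e3 - e1
  · push_cast
    rw [e2 w w0 hw, e3]
    ring

omit h H hM hs in
theorem dvd_osz {g : V ≃ₗ[F] V} (hg : g ∈ M) {r : ℕ} (hr : r.Prime) (g1 : g ^ r = 1) (g2 : ∀ v, g v = v → v = 0)
    {v : V} (v0 : v ≠ 0) : r ∣ osz σ M v := by
  have := Fact.mk hr
  let f : Function.End {w // w ∈ Orb σ M v} := fun w => ⟨g w.1, orb_map hg w.2⟩
  have e : ∀ k w, ((f ^ k) w).1 = (g ^ k) w.1 := fun k => by
    induction k with
    | zero => exact fun _ => rfl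
    | succ k ih => exact fun w => by rw [pow_succ, pow_succ, LinearEquiv.mul_apply, ← ih ⟨_, orb_map hg w.2⟩]; rfl
  have := Equiv.Perm.card_fixedPoints_modEq (f := f) (p := r) (n := 1) (funext fun w => Subtype.ext (by
    rw [e, pow_one, g1]; rfl))
  rw [Fintype.card_subtype, (Fintype.card_eq_zero_iff (α := f.fixedPoints)).2 ⟨fun ⟨w, hw⟩ => by
    obtain ⟨g, -, c, -, e'⟩ := orb_symm w.2
    simp [g2 w.1 (congrArg Subtype.val hw), v0] at e'⟩] at this
  exact (Nat.modEq_zero_iff_dvd).1 this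

theorem trN {g : V ≃ₗ[F] V} (hg : g ∈ M) (g1 : g ^ 43 = 1) (g2 : ∀ v, g v = v → v = 0) {v w : V}
    (hv : S.B v v ≠ 0) (hw : S.B w w ≠ 0) : w ∈ Orb σ M v := by
  have sub : univ.filter (· ∈ Orb σ M v) ⊆ univ.filter fun w : V => S.B w w ≠ 0 := fun u hu =>
    mem_filter.2 ⟨mem_univ _, by rwa [orb_norm hM (mem_filter.1 hu).2]⟩
  by_contra hc
  have lt : osz σ M v < 8256 := cardN h H ▸ card_lt_card ⟨sub, fun e => hc (mem_filter.1 (e (by simpa using hw))).2⟩
  have pos : 0 < osz σ M v := card_pos.2 ⟨v, by simp [self_orb]⟩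
  obtain ⟨α, β, γ, a1, a2⟩ := three (univ.filter fun w : V => w ≠ 0 ∧ S.B w w = 0) (GG S M v) (m := 2709) (by omega)
    (cardI h H) fun z => dvd_inv (σ := σ) (M := M) _ fun u hu => by
      simp only [mem_filter, mem_univ, true_and] at hu ⊢
      obtain ⟨j, hj, -⟩ := GG_I h H hM hs hu.1.1 hu.1.2
      have := dvd_osz (σ := σ) hg (by norm_num) g1 g2 hu.1.1
      refine ⟨by omega, fun x hx => ⟨⟨?_, (orb_norm hM hx).trans hu.1.2⟩, (GG_orb h hM v hx).trans hu.2⟩⟩
      rintro rfl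
      obtain ⟨g, -, c, -, e'⟩ := orb_symm hx
      simp [hu.1.1] at e'
  obtain ⟨p1, p2⟩ := pars (M := M) h H (v := v) (by rintro rfl; simp at hv)
  have e : ∀ φ : ℤ → ℤ, φ 0 = 0 → ∑ w with S.B w w ≠ 0, φ (GG S M v w) = osz σ M v * φ (-64) := fun φ h0 => by
    rw [sum_congr rfl fun u hu => by rw [GG_N h H hM hs hv (mem_filter.1 hu).2, apply_ite φ, h0], ← sum_filter,
      sum_const, nsmul_eq_mul, osz, filter_comm, filter_true_of_mem fun u hu => (mem_filter.1 (sub hu)).2]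
  rw [split (S := S), a1, e (fun z => z) rfl, GG_zero] at p1
  rw [split (S := S), a2, e (· ^ 2) rfl, GG_zero] at p2
  simp only [Nat.cast_ofNat] at p1 p2
  have e1 : (osz σ M v : ℤ) = 43 * (α + β + γ) := by omega
  refine no_sol (α := α) (β := β) (γ := γ) (by omega) (by omega) ?_
  rw [e1] at p2
  linarith

theorem trI {g : V ≃ₗ[F] V} (hg : g ∈ M) (g1 : g ^ 43 = 1) (g2 : ∀ v, g v = v → v = 0) {v w : V} (v0 : v ≠ 0)
    (w0 : w ≠ 0) (hv : S.B v v = 0) (hw : S.B w w = 0) : w ∈ Orb σ M v := by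
  have sub : univ.filter (· ∈ Orb σ M v) ⊆ univ.filter fun w : V => w ≠ 0 ∧ S.B w w = 0 := fun u hu =>
    mem_filter.2 ⟨mem_univ _, fun e => by
      obtain ⟨g, -, c, -, e'⟩ := orb_symm (mem_filter.1 hu).2
      simp [e, v0] at e', by rwa [orb_norm hM (mem_filter.1 hu).2]⟩
  have pos : 0 < osz σ M v := card_pos.2 ⟨v, by simp [self_orb]⟩
  obtain ⟨j, hj, hG⟩ := GG_I h H hM hs v0 hv
  obtain ⟨n, hn⟩ : (univ.filter fun w : V => S.B w w ≠ 0).Nonempty := by rw [← card_pos, cardN h H]; omega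
  obtain ⟨p1, p2⟩ := pars (M := M) h H v0
  have e : ∀ φ : ℤ → ℤ, ∑ w with S.B w w ≠ 0, φ (GG S M v w) = 8256 * φ (GG S M v n) := fun φ => by
    rw [sum_congr rfl fun u hu => by
      rw [GG_orb h hM v (trN h H hM hs hg g1 g2 (mem_filter.1 hn).2 (mem_filter.1 hu).2)], sum_const, cardN h H]
    simp
  have e' : ∀ φ : ℤ → ℤ, ∑ w with w ≠ 0 ∧ S.B w w = 0, φ (GG S M v w) =
      8127 * φ (-j) + osz σ M v * (φ (64 - j) - φ (-j)) := fun φ => by
    rw [sum_congr rfl (g := fun u => φ (-j) + if u ∈ Orb σ M v then φ (64 - j) - φ (-j) else 0) fun u hu => by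
      rw [hG u (mem_filter.1 hu).2.1 (mem_filter.1 hu).2.2]
      split_ifs <;> simp, sum_add_distrib, sum_const, cardI h H, ← sum_filter, sum_const, osz, filter_comm,
      filter_true_of_mem fun u hu => (mem_filter.1 (sub hu)).2]
    simp
  rw [split (S := S), e' (fun z => z), e (fun z => z), GG_zero] at p1
  rw [split (S := S), e' (· ^ 2), e (· ^ 2), GG_zero] at p2
  simp only [hj] at p1 p2
  have e1 : j = 129 := by
    have : j * (j - 129) = 0 := by nlinarith
    rcases mul_eq_zero.1 this with a | a <;> omega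
  exact (mem_filter.1 ((eq_of_subset_of_card_le sub (by rw [cardI h H]; change _ ≤ osz σ M v; omega)).ge
    (mem_filter.2 ⟨mem_univ _, w0, hw⟩))).2

omit hM hs in
theorem two {K T : Subgroup (V ≃ₗ[F] V)} {Γ : Type*} [Group Γ] [Finite Γ] {π : K →* Γ} {X : Subgroup Γ}
    (D : SgD7 S 2 K T π X) (hs : Sc H K 1)
    (hT : (∀ v w, S.B v v ≠ 0 → S.B w w = S.B v v → w ∈ Orb σ K v) → HasT S K) : sisom S ≤ K := by
  have hM : K ≤ S.isom := fun g hg => (D.le hg).1
  have c : Nat.card X = 43 := by simpa [t7] using D.card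
  have : Nontrivial X := Finite.one_lt_card_iff_nontrivial.1 (by omega)
  obtain ⟨x, x1⟩ := exists_ne (1 : X)
  obtain ⟨g, a1, a2, a3⟩ := D.lift x x.2
  have g1 : g.1 ^ 43 = 1 := c ▸ congrArg Subtype.val a3
  have g2 : ∀ v, g.1 v = v → v = 0 := fun v e => (D.free _ a1 v e).resolve_left fun e =>
    x1 (Subtype.ext (by rw [← a2, show g = 1 from Subtype.ext e, map_one]; rfl))
  obtain ⟨d, c, d0, d1, c0, c1, ht⟩ := hT fun v w hv hw => trN h H hM hs g.2 g1 g2 hv (hw ▸ hv)
  refine Full.sisom_le h.ne h.nd (by rw [h.dim]; omega) fun v _ hv => ⟨sing hv, fun c' hc' => HT.tau_mem ?_ hc'⟩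
  by_cases e : c' = 0
  · exact e ▸ ht_zero v
  by_cases v0 : v = 0
  · exact ⟨1, K.one_mem, by simp [v0]⟩
  obtain ⟨k, hk, a, ha, rfl⟩ := trI h H hM hs g.2 g1 g2 d0 v0 d1 hv
  have key : ∀ y : F, y ≠ 0 → y + σ y = 0 → y = 1 := fun y y0 y1 => by
    rw [h.pow] at y1
    exact mul_left_cancel₀ y0 (by linear_combination y1 - y * two0 h)
  refine HT.smul' ?_
  rw [ha, one_mul, key c' e (tr_of_tauOK hv hc'), ← key c c0 c1]
  exact ht.conj hk (hM hk)

end Cfsg.Agent.Sg.U7
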