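import Mathlib

/-!
Polynomial lemma, abstract part: carries between reduced monomials.
-/

set_option autoImplicit false
set_option linter.unusedSectionVars false

namespace Cfsg.Agent.Sg.P1

open MvPolynomial Finsupp Finset

variable {E R L A : Type*} [Field E] [Fintype R] [DecidableEq R] [Fintype L] [DecidableEq L] {p : ℕ}

/-- all exponents are smaller than `p` -/
def Red (p : ℕ) (m : R →₀ ℕ) : Prop := ∀ r, m r < p

/-- the function given by a monomial -/
def fn (z : R → A → E) (m : R →₀ ℕ) (x : A) : E := ∏ r, z r x ^ m r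

theorem fn_add (z : R → A → E) (m m' : R →₀ ℕ) (x : A) : fn z (m + m') x = fn z m x * fn z m' x := by
  simp [fn, pow_add, prod_mul_distrib]

theorem fn_single (z : R → A → E) (r : R) (a : ℕ) (x : A) : fn z (Finsupp.single r a) x = z r x ^ a := by
  unfold fn
  rw [Finset.prod_eq_single r]
  · simp
  · intro t _ ht
    rw [Finsupp.single_eq_of_ne ht, pow_zero]
  · simp

theorem eval_mono (z : R → A → E) (m : R →₀ ℕ) (c : E) (x : A) :
    eval (fun r => z r x) (monomial m c) = c * fn z m x := by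
  rw [eval_monomial, Finsupp.prod_fintype _ _ (by simp)]; rfl

/-- `m` reduces to `μ` -/
def Rel (p : ℕ) (σ : R → R) (m μ : R →₀ ℕ) : Prop :=
  ∃ j, m.degree = μ.degree + j * (p - 1) ∧ (j = 0 → m = μ) ∧
    (j = 1 → ∃ r, m + Finsupp.single (σ r) 1 = μ + Finsupp.single r p)

theorem carry (hp : 2 ≤ p) {σ : R → R} {z : R → A → E} (hz : ∀ r x, z (σ r) x = z r x ^ p) (m : R →₀ ℕ) :
    ∃ μ, Red p μ ∧ fn z m = fn z μ ∧ Rel p σ m μ := by
  induction hd : m.degree using Nat.strong_induction_on generalizing m with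
  | _ d ih =>
    by_cases h : Red p m
    · exact ⟨m, h, rfl, 0, by simp, fun _ => rfl, fun h => by omega⟩
    · simp only [Red, not_forall, not_lt] at h
      obtain ⟨r, hr⟩ := h
      obtain ⟨m', rfl⟩ : ∃ m', m = m' + Finsupp.single r p :=
        ⟨m - Finsupp.single r p, (tsub_add_cancel_of_le (Finsupp.single_le_iff.2 hr)).symm⟩
      simp only [map_add, degree_single] at hd
      obtain ⟨μ, h1, h2, j, h3, h4, -⟩ := ih (m'.degree + 1) (by omega) (m' + Finsupp.single (σ r) 1) (by simp)
      refine ⟨μ, h1, ?_, j + 1, ?_, fun h => by omega, fun h => ⟨r, ?_⟩⟩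
      · rw [← h2]; ext x; simp only [fn_add, fn_single, hz, pow_one]
      · simp only [map_add, degree_single] at h3 ⊢
        rw [add_mul, one_mul]; omega
      · rw [← h4 (by omega)]; abel

theorem vanish (hp : 2 ≤ p) {σ : R → R} {z : R → A → E} (hz : ∀ r x, z (σ r) x = z r x ^ p)
    (ind : ∀ Φ : MvPolynomial R E, (∀ m, coeff m Φ ≠ 0 → Red p m) → (∀ x, eval (fun r => z r x) Φ = 0) → Φ = 0)
    {Φ : MvPolynomial R E} (hΦ : ∀ x, eval (fun r => z r x) Φ = 0) {μ m₀ : R →₀ ℕ} (hμ : Red p μ)
    (h0 : fn z m₀ = fn z μ) (hu : ∀ m, coeff m Φ ≠ 0 → Rel p σ m μ → m = m₀) : coeff m₀ Φ = 0 := by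
  classical
  choose red h1 h2 h3 using carry hp hz
  have uq : ∀ ν ν' : R →₀ ℕ, Red p ν → Red p ν' → fn z ν = fn z ν' → ν = ν' := fun ν ν' a b e => by
    by_contra hne
    have := ind (monomial ν 1 - monomial ν' 1) (fun m hm => by
      rw [coeff_sub, coeff_monomial, coeff_monomial] at hm
      by_cases c1 : ν = m
      · exact c1 ▸ a
      · by_cases c2 : ν' = m
        · exact c2 ▸ b
        · simp [c1, c2] at hm) (fun x => by rw [map_sub, eval_mono, eval_mono, e, sub_self])
    have := congrArg (coeff ν) this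
    simp [coeff_monomial, Ne.symm hne] at this
  have hΨ := ind (∑ m ∈ Φ.support, monomial (red m) (coeff m Φ)) (fun ν hν => by
    rw [coeff_sum] at hν
    obtain ⟨m, -, hm⟩ := Finset.exists_ne_zero_of_sum_ne_zero hν
    rw [coeff_monomial] at hm
    split_ifs at hm with c
    · exact c ▸ h1 m
    · exact absurd rfl hm) (fun x => by
    rw [← hΦ x]
    conv_rhs => rw [Φ.as_sum]
    simp only [map_sum, eval_mono, ← h2])
  by_contra hne
  have := congrArg (coeff μ) hΨ
  rw [coeff_sum, Finset.sum_eq_single m₀, coeff_monomial, if_pos (uq _ _ (h1 _) hμ ((h2 _).symm.trans h0))] at this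
  · exact hne this
  · intro m hm hne'
    rw [coeff_monomial, if_neg]
    intro e
    exact hne' (hu m (MvPolynomial.mem_support_iff.1 hm) (e ▸ h3 m))
  · intro h; exact absurd (MvPolynomial.mem_support_iff.2 hne) h

/-- all reduced coefficients vanish -/
def InJ (p : ℕ) (Φ : MvPolynomial R E) : Prop := ∀ μ, Red p μ → coeff μ Φ = 0

theorem InJ.mul {Φ : MvPolynomial R E} (h : InJ p Φ) (Ψ : MvPolynomial R E) : InJ p (Φ * Ψ) := fun μ hμ => by
  rw [coeff_mul]
  refine Finset.sum_eq_zero fun x hx => ?_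
  rw [h x.1 fun r => lt_of_le_of_lt ?_ (hμ r), zero_mul]
  rw [← mem_antidiagonal.1 hx]; simp

/-- a linear form -/
noncomputable def lf (b : R → E) : MvPolynomial R E := ∑ t, C (b t) * X t

theorem coeff_lf_mul (b : R → E) (Φ : MvPolynomial R E) (m : R →₀ ℕ) :
    coeff m (lf b * Φ) = ∑ t, if 1 ≤ m t then b t * coeff (m - Finsupp.single t 1) Φ else 0 := by
  unfold lf
  rw [Finset.sum_mul, coeff_sum]
  refine Finset.sum_congr rfl fun t _ => ?_
  rw [C_mul_X_eq_monomial, coeff_monomial_mul']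
  simp only [Finsupp.single_le_iff]

theorem coeff_lf_pow_mul [Fact p.Prime] [CharP E p] (b : R → E) (Φ : MvPolynomial R E) (m : R →₀ ℕ) :
    coeff m (lf b ^ p * Φ) = ∑ t, if p ≤ m t then b t ^ p * coeff (m - Finsupp.single t p) Φ else 0 := by
  unfold lf
  rw [sum_pow_char, Finset.sum_mul, coeff_sum]
  refine Finset.sum_congr rfl fun t _ => ?_
  rw [mul_pow, ← map_pow, C_mul_X_pow_eq_monomial, coeff_monomial_mul']
  simp only [Finsupp.single_le_iff]

theorem inJ_pow [Fact p.Prime] [CharP E p] (b : R → E) (Φ : MvPolynomial R E) : InJ p (lf b ^ p * Φ) :=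
  fun μ hμ => by
    rw [coeff_lf_pow_mul]
    exact Finset.sum_eq_zero fun t _ => if_neg (not_le.2 (hμ t))

theorem coeff_lf_pow (b : R → E) (i : R) (e : ℕ) : coeff (Finsupp.single i e) (lf b ^ e) = b i ^ e := by
  induction e with
  | zero => simp
  | succ e ih =>
    rw [pow_succ', coeff_lf_mul, Finset.sum_eq_single i, if_pos (by simp), ← Finsupp.single_tsub,
      Nat.add_sub_cancel, ih, pow_succ']
    · intro t _ ht
      rw [if_neg (by simp [Finsupp.single_eq_of_ne ht])]
    · simp

theorem coeff_lf_pow' (b : R → E) {i i' : R} (h : i ≠ i') (e : ℕ) :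
    coeff (Finsupp.single i e + Finsupp.single i' 1) (lf b ^ (e + 1)) = (e + 1 : ℕ) * b i ^ e * b i' := by
  induction e with
  | zero =>
    simpa using coeff_lf_pow b i' 1
  | succ e ih =>
    rw [pow_succ', coeff_lf_mul, ← Finset.sum_subset (Finset.subset_univ {i, i'}), Finset.sum_pair h,
      if_pos (by simp; omega), if_pos (by simp)]
    · have e1 : Finsupp.single i (e + 1) + Finsupp.single i' 1 - Finsupp.single i 1 =
          Finsupp.single i e + Finsupp.single i' 1 := by
        rw [Finsupp.single_add, add_right_comm, add_tsub_cancel_right]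
      rw [e1, ih, add_tsub_cancel_right, coeff_lf_pow]
      push_cast; ring
    · intro t _ ht
      simp only [Finset.mem_insert, Finset.mem_singleton, not_or] at ht
      rw [if_neg (by simp [Finsupp.single_eq_of_ne ht.1, Finsupp.single_eq_of_ne ht.2])]

/-- level weights -/
def ww (lev : R → L) (r : R) : L → ℕ := Pi.single (lev r) 1

theorem wt_apply (lev : R → L) (m : R →₀ ℕ) (s : L) :
    weight (ww lev) m s = ∑ r ∈ univ.filter (fun r => lev r = s), m r := by
  rw [weight_eq_sum, Finset.sum_apply, Finset.sum_filter]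
  refine Finset.sum_congr rfl fun r _ => ?_
  by_cases h : lev r = s
  · simp [ww, h]
  · simp [ww, h, Ne.symm h]

theorem deg_eq (lev : R → L) {m m' : R →₀ ℕ} (h : weight (ww lev) m = weight (ww lev) m') :
    m.degree = m'.degree := by
  have : ∀ m : R →₀ ℕ, m.degree = ∑ s, weight (ww lev) m s := fun m => by
    simp only [wt_apply]
    rw [degree_eq_sum, Finset.sum_fiberwise]
  rw [this, this, h]

theorem wt_single (lev : R → L) (r : R) (a : ℕ) (s : L) :
    weight (ww lev) (Finsupp.single r a) s = if lev r = s then a else 0 := by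
  rw [weight_single]
  by_cases h : lev r = s
  · simp [ww, h]
  · simp [ww, h, Ne.symm h]

theorem le_wt (lev : R → L) (m : R →₀ ℕ) (r : R) : m r ≤ weight (ww lev) m (lev r) := by
  rw [wt_apply]
  exact Finset.single_le_sum (f := m) (fun _ _ => Nat.zero_le _) (by simp)

/-- the monomial with exponents constant on levels -/
noncomputable def YY (lev : R → L) (d : L → ℕ) : R →₀ ℕ := Finsupp.equivFunOnFinite.symm fun r => d (lev r)

@[simp] theorem YY_apply (lev : R → L) (d : L → ℕ) (r : R) : YY lev d r = d (lev r) := rfl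

theorem wt_YY (lev : R → L) (d : L → ℕ) (s : L) :
    weight (ww lev) (YY lev d) s = (univ.filter (fun r => lev r = s)).card * d s := by
  rw [wt_apply, Finset.sum_congr rfl (g := fun _ => d s), Finset.sum_const, smul_eq_mul]
  intro r hr
  rw [YY_apply, (Finset.mem_filter.1 hr).2]

/-- the transformed monomial -/
noncomputable def PP (lev : R → L) (b : R → R → E) (d : L → ℕ) : MvPolynomial R E := ∏ r, lf (b r) ^ d (lev r)

theorem PP_hom {lev : R → L} {b : R → R → E} (hb : ∀ r t, b r t ≠ 0 → lev t = lev r) (d : L → ℕ) :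
    IsWeightedHomogeneous (ww lev) (PP lev b d) (weight (ww lev) (YY lev d)) := by
  rw [weight_eq_sum]
  refine IsWeightedHomogeneous.prod _ _ _ fun r _ => IsWeightedHomogeneous.pow ?_ _
  refine IsWeightedHomogeneous.sum _ _ _ fun t _ => ?_
  by_cases h : b r t = 0
  · rw [h, map_zero, zero_mul]; exact isWeightedHomogeneous_zero _ _ _
  · have := (isWeightedHomogeneous_X E (ww lev) t).C_mul (b r t)
    rwa [ww, hb r t h] at this

theorem PP_split (lev : R → L) (b : R → R → E) (d : L → ℕ) (r : R) :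
    ∃ Q, PP lev b d = lf (b r) ^ d (lev r) * Q :=
  ⟨_, (Finset.mul_prod_erase _ _ (Finset.mem_univ r)).symm⟩

theorem case1 [hp : Fact p.Prime] [CharP E p] {lev : R → L} {b : R → R → E} (hb : ∀ r t, b r t ≠ 0 → lev t = lev r)
    {d : L → ℕ} (hd : ∀ s, d s < p) (h0 : InJ p (PP lev b d - monomial (YY lev d) 1)) {r : R}
    (h1 : d (lev r) ≠ 0) (h2 : d (lev r) ≠ p - 1) {t t' : R} (ht : t ≠ t') : b r t = 0 ∨ b r t' = 0 := by
  by_contra hne
  rw [not_or] at hne
  obtain ⟨Q, hQ⟩ := PP_split lev b d r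
  obtain ⟨e, he⟩ : ∃ e, p = d (lev r) + (e + 1) := ⟨p - d (lev r) - 1, by have := hd (lev r); omega⟩
  have a1 := h0.mul (lf (b r) ^ (e + 1))
  have a2 := inJ_pow (p := p) (b r) Q
  have e1 : (PP lev b d - monomial (YY lev d) 1) * lf (b r) ^ (e + 1) =
      lf (b r) ^ p * Q - lf (b r) ^ (e + 1) * monomial (YY lev d) 1 := by
    rw [hQ]; conv_rhs => rw [he]
    ring
  have hμ : Red p (Finsupp.single t e + Finsupp.single t' 1 + YY lev d) := fun u => by
    have := hd (lev u)
    simp only [Finsupp.add_apply, YY_apply, Finsupp.single_apply]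
    split_ifs with c1 c2 c2
    · exact absurd (c1.trans c2.symm) ht
    · rw [← c1, hb r t hne.1]; omega
    · rw [← c2, hb r t' hne.2]; omega
    · omega
  have a3 := a1 _ hμ
  rw [e1, coeff_sub, a2 _ hμ, coeff_mul_monomial, coeff_lf_pow' _ ht, zero_sub, neg_eq_zero, mul_one] at a3
  simp only [mul_eq_zero, hne.2, or_false, pow_eq_zero_iff', hne.1, false_and] at a3
  rw [CharP.cast_eq_zero_iff E p] at a3
  have := Nat.le_of_dvd (by omega) a3
  omega

theorem case2 [hp : Fact p.Prime] [CharP E p] {lev : R → L} {b : R → R → E} (hb : ∀ r t, b r t ≠ 0 → lev t = lev r)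
    {d : L → ℕ} (hd : ∀ s, d s < p) (h0 : coeff (YY lev d) (PP lev b d) = 1) {r : R} (h1 : d (lev r) = p - 1)
    (h2 : ∀ ν u, Red p ν → lev u = lev r → coeff (ν + Finsupp.single u p) (PP lev b d) = 0)
    {t t' : R} (ht : t ≠ t') : b r t = 0 ∨ b r t' = 0 := by
  by_contra hne
  rw [not_or] at hne
  have p2 := hp.out.two_le
  obtain ⟨Q, hQ⟩ := PP_split lev b d r
  have e1 : lf (b r) * PP lev b d = lf (b r) ^ p * Q := by
    rw [hQ, h1, ← mul_assoc, ← pow_succ', Nat.sub_add_cancel (by omega)]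
  have lt := hb r t hne.1
  have lt' := hb r t' hne.2
  set ν := YY lev d - Finsupp.single t' (p - 1) with hν
  have νa : ∀ u, ν u = if t' = u then 0 else d (lev u) := fun u => by
    simp only [hν, Finsupp.tsub_apply, YY_apply, Finsupp.single_apply]
    split_ifs with c
    · rw [← c, lt', h1]; omega
    · omega
  have νl : ∀ u, ν u < p := fun u => by
    rw [νa]; split_ifs
    · omega
    · exact hd _
  -- the coefficient of `ν + p e_u` on the right hand side
  have rhs : ∀ u, coeff (ν + Finsupp.single u p) (lf (b r) ^ p * Q) = b r u ^ p * coeff ν Q := fun u => by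
    rw [coeff_lf_pow_mul, Finset.sum_eq_single u, if_pos (by simp), add_tsub_cancel_right]
    · intro v _ hv
      rw [if_neg]
      simpa [Finsupp.single_eq_of_ne hv] using νl v
    · simp
  have zz : ∀ u v, lev u = lev r → 1 ≤ ν v →
      coeff (ν + Finsupp.single u p - Finsupp.single v 1) (PP lev b d) = 0 := fun u v hu hv => by
    rw [add_comm, add_tsub_assoc_of_le (Finsupp.single_le_iff.2 hv), add_comm]
    exact h2 _ _ (fun x => lt_of_le_of_lt (by simp) (νl x)) hu
  have a1 := rhs t'
  have a2 := rhs t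
  rw [← e1, coeff_lf_mul] at a1 a2
  rw [Finset.sum_eq_single t', if_pos (by simp; omega)] at a1
  · have : ν + Finsupp.single t' p - Finsupp.single t' 1 = YY lev d := by
      ext u
      simp only [Finsupp.tsub_apply, Finsupp.add_apply, YY_apply, Finsupp.single_apply, νa]
      split_ifs with c
      · rw [← c, lt', h1]; omega
      · omega
    rw [this, h0, mul_one] at a1
    rw [Finset.sum_eq_zero] at a2
    · rcases mul_eq_zero.1 a2.symm with c | c
      · exact hne.1 (pow_eq_zero_iff (by omega) |>.1 c)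
      · rw [c, mul_zero] at a1; exact hne.2 a1
    · intro v _
      split_ifs with c
      · rw [zz t v lt, mul_zero]
        by_cases c' : t = v
        · rw [νa, if_neg (c' ▸ ht.symm), ← c', lt, h1]; omega
        · simpa [Finsupp.single_eq_of_ne (Ne.symm c')] using c
      · rfl
  · intro v _ hv
    split_ifs with c
    · rw [zz t' v lt', mul_zero]
      simpa [Finsupp.single_eq_of_ne hv] using c
    · rfl
  · simp

theorem core [hp : Fact p.Prime] [CharP E p] {σ : R → R} {z : R → A → E} (hz : ∀ r x, z (σ r) x = z r x ^ p)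
    (ind : ∀ Φ : MvPolynomial R E, (∀ m, coeff m Φ ≠ 0 → Red p m) → (∀ x, eval (fun r => z r x) Φ = 0) → Φ = 0)
    (hσ : Function.Injective σ) {lev : R → L} {τ : L → L} (hτ : Function.Injective τ) (hl : ∀ r, lev (σ r) = τ (lev r))
    (cnt : ∀ s, 4 ≤ (univ.filter (fun r => lev r = s)).card) {T : Finset (L → ℕ)} (hT : T.Nonempty)
    {c : (L → ℕ) → E} (hc : ∀ d ∈ T, c d ≠ 0) (hd : ∀ d ∈ T, ∀ s, d s < p)
    (hd2 : ∀ d ∈ T, (∀ s, d s = 0 ∨ d s = p - 1) → ∃ s, d s = p - 1 ∧ d (τ s) = 0)
    {b : R → R → E} (hb : ∀ r t, b r t ≠ 0 → lev t = lev r)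
    (H : ∀ x, ∑ d ∈ T, c d * ∏ r, (∑ t, b r t * z t x) ^ d (lev r) = ∑ d ∈ T, c d * ∏ r, z r x ^ d (lev r)) :
    ∃ r, ∀ t t', t ≠ t' → b r t = 0 ∨ b r t' = 0 := by
  have p2 := hp.out.two_le
  set D : (L → ℕ) → MvPolynomial R E := fun d => PP lev b d - monomial (YY lev d) 1 with hD
  set W : (L → ℕ) → L → ℕ := fun d => weight (ww lev) (YY lev d) with hW
  have Dh : ∀ d, IsWeightedHomogeneous (ww lev) (D d) (W d) := fun d =>
    (PP_hom hb d).sub (isWeightedHomogeneous_monomial _ _ _ rfl)
  have Wi : ∀ d d', W d = W d' → d = d' := fun d d' h => funext fun s => by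
    have := congrFun h s
    simp only [hW, wt_YY] at this
    exact Nat.eq_of_mul_eq_mul_left (by have := cnt s; omega) this
  set Φ := ∑ d ∈ T, C (c d) * D d with hΦ
  have Φ0 : ∀ x, eval (fun r => z r x) Φ = 0 := fun x => by
    simp only [hΦ, hD, map_sum, map_mul, map_sub, eval_C, eval_mono, PP, map_prod, map_pow, lf, eval_X, mul_sub,
      Finset.sum_sub_distrib, one_mul, fn, YY_apply]
    exact sub_eq_zero.2 (H x)
  have Φs : ∀ m, coeff m Φ ≠ 0 → ∃ d ∈ T, weight (ww lev) m = W d := fun m hm => by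
    rw [hΦ, coeff_sum] at hm
    obtain ⟨d, h1, h2⟩ := Finset.exists_ne_zero_of_sum_ne_zero hm
    exact ⟨d, h1, ((Dh d).C_mul _) h2⟩
  have Φc : ∀ d ∈ T, ∀ m, weight (ww lev) m = W d → coeff m Φ = 0 → coeff m (D d) = 0 := fun d h1 m hm h => by
    rw [hΦ, coeff_sum, Finset.sum_eq_single d, coeff_C_mul] at h
    · exact (mul_eq_zero.1 h).resolve_left (hc d h1)
    · intro d' _ hd'
      exact ((Dh d').C_mul _).coeff_eq_zero _ fun e => hd' (Wi _ _ (e.symm.trans hm))
    · exact fun h => absurd h1 h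
  have H0 : ∀ d ∈ T, (∀ d' ∈ T, (YY lev d').degree ≤ (YY lev d).degree) → InJ p (D d) := fun d h1 hm μ hμ => by
    by_cases hw : weight (ww lev) μ = W d
    · refine Φc d h1 μ hw (vanish p2 hz ind Φ0 hμ rfl fun m hm' ⟨j, e1, e2, _⟩ => e2 ?_)
      obtain ⟨d', a1, a2⟩ := Φs m hm'
      have := hm d' a1
      rw [← deg_eq lev a2, ← deg_eq lev hw, e1] at this
      rcases Nat.eq_zero_or_pos j with c | c
      · exact c
      · have := Nat.mul_pos c (show 0 < p - 1 by omega); omega
    · exact (Dh d).coeff_eq_zero _ hw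
  have surj : ∀ s, ∃ r, lev r = s := fun s => by
    obtain ⟨r, hr⟩ := Finset.card_pos.1 (show 0 < (univ.filter (fun r => lev r = s)).card by have := cnt s; omega)
    exact ⟨r, (Finset.mem_filter.1 hr).2⟩
  by_cases c1 : ∃ d ∈ T, (∀ d' ∈ T, (YY lev d').degree ≤ (YY lev d).degree) ∧ ∃ s, d s ≠ 0 ∧ d s ≠ p - 1
  · obtain ⟨d, h1, h2, s, h3, h4⟩ := c1
    obtain ⟨r, rfl⟩ := surj s
    exact ⟨r, fun t t' ht => case1 hb (hd d h1) (H0 d h1 h2) h3 h4 ht⟩
  have c2 : ∀ d ∈ T, (∀ d' ∈ T, (YY lev d').degree ≤ (YY lev d).degree) → ∀ s, d s = 0 ∨ d s = p - 1 :=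
    fun d h1 h2 s => by
      by_contra hne
      rw [not_or] at hne
      exact c1 ⟨d, h1, h2, s, hne⟩
  obtain ⟨d, h1, h2⟩ := T.exists_max_image (fun d => (YY lev d).degree) hT
  obtain ⟨s, h3, h4⟩ := hd2 d h1 (c2 d h1 h2)
  obtain ⟨r, rfl⟩ := surj s
  have hY : Red p (YY lev d) := fun u => hd d h1 _
  refine ⟨r, fun t t' ht => case2 hb (hd d h1) ?_ h3 (fun ν u hν hu => ?_) ht⟩
  · have := H0 d h1 h2 _ hY
    simpa [hD, sub_eq_zero] using this
  by_cases hw : weight (ww lev) (ν + Finsupp.single u p) = W d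
  swap
  · exact (PP_hom hb d).coeff_eq_zero _ hw
  have ne1 : lev r ≠ τ (lev r) := fun e => by rw [← e] at h4; omega
  have w0 : weight (ww lev) ν (τ (lev r)) = 0 := by
    have := congrFun hw (τ (lev r))
    simp only [hW, wt_YY, h4, map_add, Pi.add_apply] at this
    omega
  have ν0 : ∀ v, lev v = τ (lev r) → ν v = 0 := fun v hv => by
    have := le_wt lev ν v
    rw [hv] at this; omega
  have hμ : Red p (ν + Finsupp.single (σ u) 1) := fun v => by
    simp only [Finsupp.add_apply, Finsupp.single_apply]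
    split_ifs with e
    · rw [ν0 v (by rw [← e, hl, hu])]; omega
    · exact hν v
  have key := Φc d h1 _ hw (vanish p2 hz ind Φ0 hμ (m₀ := ν + Finsupp.single u p)
    (by ext x; simp only [fn_add, fn_single, hz, pow_one]) fun m hm ⟨j, e1, e2, e3⟩ => ?_)
  · rw [hD, coeff_sub, coeff_monomial, if_neg, sub_zero] at key
    · exact key
    · intro e
      have := hY u
      rw [e] at this
      simp at this
  obtain ⟨d', a1, a2⟩ := Φs m hm
  have b1 := h2 d' a1
  have b2 := deg_eq lev a2
  have b3 := deg_eq lev hw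
  simp only [map_add, degree_single] at e1 b3
  have b4 := congrFun a2 (τ (lev r))
  have b5 := cnt (τ (lev r))
  simp only [hW, wt_YY] at b4
  rcases Nat.lt_trichotomy j 1 with c | c | c
  · rw [e2 (by omega), map_add, Pi.add_apply, w0, wt_single, if_pos (by rw [hl, hu])] at b4
    have := Nat.eq_one_of_mul_eq_one_right b4.symm
    omega
  · obtain ⟨v, hv⟩ := e3 c
    have b6 := congrFun (congrArg (weight (ww lev)) hv) (τ (lev r))
    simp only [map_add, Pi.add_apply, w0, wt_single, hl, hu, if_true, b4] at b6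
    by_cases c3 : lev v = lev r
    · have b7 := DFunLike.congr_fun hv (σ v)
      have : v ≠ σ v := fun e => ne1 (by rw [← c3, ← hl, ← e])
      simp only [Finsupp.add_apply, Finsupp.single_eq_same, Finsupp.single_eq_of_ne this.symm,
        ν0 (σ v) (by rw [hl, c3])] at b7
      have : u = v := by
        by_contra hne
        rw [Finsupp.single_eq_of_ne (hσ.ne (Ne.symm hne))] at b7
        omega
      subst this
      rw [add_right_comm] at hv
      exact add_right_cancel hv
    · exfalso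
      rw [if_neg (hτ.ne c3)] at b6
      rcases c2 d' a1 (fun d'' h => (h2 d'' h).trans (by rw [c] at e1; omega)) (τ (lev r)) with e | e
      · rw [e] at b6; omega
      · rw [e] at b6
        have := Nat.mul_le_mul_right (p - 1) b5
        split_ifs at b6 <;> omega
  · exfalso
    have := Nat.mul_le_mul_right (p - 1) (show 2 ≤ j from c)
    omega

end Cfsg.Agent.Sg.P1
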