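import Cfsg.Agent.H5.CKa

/-! Perin's argument with a plane: a primitive prime divisor of `q ^ (n - 3) - 1` gives a transvection. -/

set_option autoImplicit false
set_option linter.unusedSectionVars false

namespace Cfsg.Agent.H5.CK

open Module

theorem dvd_lt_two {k m : ℕ} (h : k ∣ m) (hm : m < 2 * k) : m = 0 ∨ m = k := by
  obtain ⟨c, rfl⟩ := h
  have : c < 2 := by
    by_contra hc
    have := Nat.mul_le_mul_left k (not_lt.1 hc)
    omega
  interval_cases c <;> simp

theorem fieldk {F U N : Type*} [Field F] [Fintype F] [AddCommGroup U] [Module F U] [Finite U]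
    [Group N] {k : ℕ} (hk : 0 < k) (hU : finrank F U = k) (τ : Representation F N U) (z : N)
    (irr : ∀ S : Submodule F U, (∀ u ∈ S, τ z u ∈ S) → S = ⊥ ∨ S = ⊤)
    (hc : ∀ n, Commute (n * z * n⁻¹) z) (a b : N) :
    τ (a * b * a⁻¹ * b⁻¹) ^ (Fintype.card F ^ k - 1) = 1 := by
  classical
  have : Nontrivial U := Module.nontrivial_of_finrank_pos (R := F) (by omega)
  have : Finite (Module.End F U) := Finite.of_injective _ (DFunLike.coe_injective (F := U →ₗ[F] U))
  set K := Subalgebra.centralizer F {τ z} with hK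
  have mK : ∀ a, a ∈ K ↔ τ z * a = a * τ z := fun a => by
    simp [hK, Subalgebra.mem_centralizer_iff]
  have inj : ∀ a : K, a ≠ 0 → ∀ u, (a : Module.End F U) u = 0 → u = 0 := fun a ha u hu => by
    rcases irr (LinearMap.ker (a : Module.End F U)) (fun u hu => by
      rw [LinearMap.mem_ker] at hu ⊢
      rw [← Module.End.mul_apply, ← (mK _).1 a.2, Module.End.mul_apply, hu, map_zero]) with e | e
    · have : u ∈ LinearMap.ker (a : Module.End F U) := hu
      rwa [e] at this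
    · exact absurd (Subtype.ext (LinearMap.ker_eq_top.1 e)) ha
  have : NoZeroDivisors K := ⟨fun {a b} hab => by
    by_contra hne
    push Not at hne
    refine hne.2 (Subtype.ext (LinearMap.ext fun u => inj a hne.1 _ ?_))
    exact LinearMap.congr_fun (congrArg Subtype.val hab) u⟩
  have : IsDomain K := NoZeroDivisors.to_isDomain K
  have hF := Finite.isDomain_to_isField K
  let _ := hF.toField
  obtain ⟨u₀, hu₀⟩ := exists_ne (0 : U)
  let ev : K →ₗ[F] U := (LinearMap.applyₗ u₀) ∘ₗ K.val.toLinearMap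
  have evi : Function.Injective ev := (injective_iff_map_eq_zero ev).2 fun a ha => by
    by_contra h0
    exact hu₀ (inj a h0 u₀ ha)
  have evs : LinearMap.range ev = ⊤ := by
    refine (irr _ ?_).resolve_left fun e => hu₀ ?_
    · rintro _ ⟨a, rfl⟩
      exact ⟨⟨τ z, (mK _).2 rfl⟩ * a, rfl⟩
    · have : u₀ ∈ LinearMap.range ev := ⟨1, rfl⟩
      rwa [e] at this
  have dK : finrank F K = k := by
    rw [← hU, ← LinearMap.finrank_range_of_inj evi, evs, finrank_top]
  have cj : ∀ (n : N) (a : K), τ n * a * τ n⁻¹ ∈ K := fun n a => by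
    have h1 : τ (n⁻¹ * z * n⁻¹⁻¹) ∈ K := (mK _).2 (by rw [← map_mul, ← map_mul, (hc _).eq])
    have h2 : τ (n⁻¹ * z * n⁻¹⁻¹) * a = a * τ (n⁻¹ * z * n⁻¹⁻¹) :=
      congrArg Subtype.val (hF.mul_comm ⟨_, h1⟩ a)
    rw [mK]
    calc τ z * (τ n * a * τ n⁻¹) = τ n * (τ (n⁻¹ * z * n⁻¹⁻¹) * a) * τ n⁻¹ := by
          simp only [← mul_assoc, ← map_mul]; simp
      _ = τ n * a * τ n⁻¹ * τ z := by
          rw [h2]; simp only [mul_assoc, ← map_mul]; simp
  have e1 : ∀ n : N, τ n⁻¹ * τ n = 1 := fun n => by rw [← map_mul]; simp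
  have e2 : ∀ n : N, τ n * τ n⁻¹ = 1 := fun n => by rw [← map_mul]; simp
  let c : N →* (K →ₐ[F] K) :=
    { toFun := fun n =>
        { toFun := fun a => ⟨_, cj n a⟩
          map_one' := Subtype.ext (by simp [e2])
          map_mul' := fun a b => Subtype.ext (by
            simp only [MulMemClass.coe_mul, mul_assoc]
            rw [← mul_assoc (τ n⁻¹) (τ n), e1, one_mul])
          map_zero' := Subtype.ext (by simp)
          map_add' := fun a b => Subtype.ext (by simp [mul_add, add_mul])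
          commutes' := fun r => Subtype.ext (by
            simp [Algebra.algebraMap_eq_smul_one, e2]) }
      map_one' := AlgHom.ext fun a => Subtype.ext (by simp)
      map_mul' := fun m n => AlgHom.ext fun a => Subtype.ext (by
        simp [mul_assoc]) }
  let σ : N →* (K ≃ₐ[F] K) := (AlgEquiv.algHomUnitsEquiv F K).toMonoidHom.comp c.toHomUnits
  have hn : σ (a * b * a⁻¹ * b⁻¹) = 1 := by
    let _ := IsCyclic.commGroup (α := K ≃ₐ[F] K)
    simp only [map_mul, map_inv]
    rw [mul_right_comm (σ a)]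
    simp
  generalize a * b * a⁻¹ * b⁻¹ = n at hn
  have h1 : c n = 1 := by
    have : c.toHomUnits n = 1 := (AlgEquiv.algHomUnitsEquiv F K).map_eq_one_iff.1 hn
    exact congrArg Units.val this
  have h2 : τ n ∈ K := by
    have : τ n * τ z * τ n⁻¹ = τ z :=
      congrArg Subtype.val (AlgHom.congr_fun h1 ⟨τ z, (mK _).2 rfl⟩)
    rw [mK]
    conv_lhs => rw [← this, mul_assoc, e1, mul_one]
  have h0 : (⟨τ n, h2⟩ : K) ≠ 0 := fun e => by
    have : τ n = 0 := congrArg Subtype.val e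
    have h := e2 n
    rw [this, zero_mul] at h
    exact zero_ne_one h
  have := Fintype.ofFinite K
  have := FiniteField.pow_card_sub_one_eq_one _ h0
  rw [Module.card_eq_pow_finrank (K := F), dK] at this
  exact congrArg Subtype.val this

section
variable {F V Δ : Type*} [Field F] [Fintype F] [AddCommGroup V] [Module F V] [Finite V]
  [Group Δ] [Finite Δ] [DistribMulAction Δ V] [SMulCommClass Δ F V]

theorem fxk {k s : ℕ} (hs : s.Prime)
    (H : ∀ a b : ℕ, b ≤ a → Fintype.card F ^ a ≡ Fintype.card F ^ b [MOD s] → k ∣ a - b)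
    {z : Δ} (hz : orderOf z = s) (U : Submodule F V) (hU : z ∈ SS Δ U) :
    k ∣ finrank F U - finrank F (U ⊓ Fx F V z : Submodule F V) := by
  have := Fact.mk hs
  refine H _ _ (Submodule.finrank_mono inf_le_left) ?_
  have := H1.Basic.card_modEq_of_invariant (p := s) (Subgroup.zpowers z)
    (IsPGroup.of_card (n := 1) (by rw [Nat.card_zpowers, hz, pow_one])) (U : Set V)
    (fun g hg => (Subgroup.zpowers_le.2 hU) hg)
  have e : (U : Set V) ∩ MulAction.fixedPoints (Subgroup.zpowers z) V =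
      (U ⊓ Fx F V z : Submodule F V) := by
    ext v
    refine and_congr_right fun _ => ⟨fun h => mem_Fx.2 (h ⟨z, Subgroup.mem_zpowers z⟩),
      fun h g => ?_⟩
    exact (Subgroup.zpowers_le (H := MulAction.stabilizer Δ v)).2 (mem_Fx.1 h) g.2
  rwa [e, ← Nat.card_coe_set_eq, ← Nat.card_coe_set_eq, SetLike.coe_sort_coe,
    SetLike.coe_sort_coe, card_sub, card_sub] at this

theorem dim_fxk [FaithfulSMul Δ V] {k : ℕ} (hd : finrank F V = k + 3) (h4 : 4 ≤ k) {s : ℕ} (hs : s.Prime)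
    (H : ∀ a b : ℕ, b ≤ a → Fintype.card F ^ a ≡ Fintype.card F ^ b [MOD s] → k ∣ a - b)
    {z : Δ} (hz : orderOf z = s) : finrank F (Fx F V z) = 3 := by
  have h1 := fxk hs H hz (⊤ : Submodule F V) (fun _ _ => trivial)
  rw [top_inf_eq, finrank_top, hd] at h1
  have h2 : Fx F V z ≠ ⊤ := fun e => by
    have : z = 1 := FaithfulSMul.eq_of_smul_eq_smul (α := V) fun v => by
      rw [one_smul]; exact mem_Fx.1 (e ▸ Submodule.mem_top (R := F))
    rw [this, orderOf_one] at hz
    exact hs.one_lt.ne hz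
  have := Submodule.finrank_lt h2
  have := dvd_lt_two h1 (by omega)
  omega

theorem corek [FaithfulSMul Δ V] {k : ℕ} (hd : finrank F V = k + 3) (h4 : 4 ≤ k) {s : ℕ} (hs : s.Prime)
    (H : ∀ a b : ℕ, b ≤ a → Fintype.card F ^ a ≡ Fintype.card F ^ b [MOD s] → k ∣ a - b)
    {r : Δ} (hr : orderOf r = s) (hl : ∀ g : Δ, g ∈ SS Δ (Fx F V r)) {x y t : V} (hx : x ≠ 0)
    (xl : x ∈ Fx F V r) (yl : y ∈ Fx F V r) (tl : t ∈ Fx F V r)
    (sp : ∀ v ∈ Fx F V r, ∃ a b c : F, v = a • x + b • y + c • t)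
    (u1 : ∃ g : Δ, g • x = x ∧ g • t = t ∧ g • y = y + x)
    (u2 : ∃ g : Δ, g • x = x ∧ g • y = y ∧ g • t = t + y) : TV F V Δ := by
  have dl := dim_fxk hd h4 hs H hr
  have rl : ∀ v ∈ Fx F V r, r • v = v := fun v => mem_Fx.1
  generalize Fx F V r = l at *
  let C : Subgroup Δ :=
    { carrier := {g | ∀ v ∈ l, g • v = v}
      one_mem' := fun _ _ => one_smul _ _
      mul_mem' := fun {a b} ha hb v hv => by rw [mul_smul, hb v hv, ha v hv]
      inv_mem' := fun {a} ha v hv => by rw [inv_smul_eq_iff, ha v hv] }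
  have : C.Normal := ⟨fun a ha h v hv => by
    rw [mul_smul, mul_smul, ha _ (hl h⁻¹ v hv), smul_inv_smul]⟩
  obtain ⟨z, zC, oz, N, zN, hN, fr⟩ := frat C hs (hr ▸ Subgroup.orderOf_dvd_natCard C rl)
  have el : l = Fx F V z := Submodule.eq_of_le_of_finrank_eq (fun v hv => mem_Fx.2 (zC v hv))
    (by rw [dl, dim_fxk hd h4 hs H oz])
  obtain ⟨W₀, mW, dW⟩ : ∃ W₀ : Submodule F V, (∀ w, w ∈ W₀ ↔ ∃ v, z • v - v = w) ∧
      finrank F W₀ = k := by
    refine ⟨LinearMap.range (lin F V z - LinearMap.id), fun w => by simp, ?_⟩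
    have := LinearMap.finrank_range_add_finrank_ker (lin F V z - LinearMap.id)
    have e : finrank F (LinearMap.ker (lin F V z - LinearMap.id)) = 3 := dim_fxk hd h4 hs H oz
    omega
  have cW : ∀ a : Δ, Commute a z → a ∈ SS Δ W₀ := fun a ha w hw => by
    obtain ⟨v, rfl⟩ := (mW w).1 hw
    exact (mW _).2 ⟨a • v, by rw [smul_sub, ← mul_smul, ← ha.eq, mul_smul]⟩
  have dj : ∀ S : Submodule F V, z ∈ SS Δ S → k ∣ finrank F S - finrank F (S ⊓ l : Submodule F V) :=
    fun S hS => el ▸ fxk hs H oz S hS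
  have hc : IsCompl l W₀ := by
    have h1 := dj W₀ (cW z (Commute.refl z))
    have h2 := Submodule.finrank_mono (inf_le_right : W₀ ⊓ l ≤ l)
    have h3 : finrank F (W₀ ⊓ l : Submodule F V) = 0 := by
      have := dvd_lt_two h1 (by omega)
      omega
    rw [Submodule.finrank_eq_zero, inf_comm] at h3
    refine ⟨disjoint_iff.2 h3, codisjoint_iff.2 (Submodule.eq_top_of_finrank_eq ?_)⟩
    have := Submodule.finrank_sup_add_finrank_inf_eq l W₀
    rw [h3, finrank_bot] at this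
    omega
  have NW : ∀ n ∈ N, n ∈ SS Δ W₀ := fun n hn w hw => by
    obtain ⟨v, rfl⟩ := (mW w).1 hw
    obtain ⟨u, hu, w, hw, e⟩ :=
      Submodule.mem_sup.1 (hc.sup_eq_top ▸ Submodule.mem_top (x := n • v))
    have : n • (z • v - v) = (n * z * n⁻¹) • w - w := by
      rw [smul_sub, show n • z • v = (n * z * n⁻¹) • n • v by simp [mul_smul], ← e, smul_add,
        Subgroup.Normal.conj_mem this z zC n u hu, add_sub_add_left_eq_sub]
    rw [this]
    exact W₀.sub_mem (cW _ (hN n hn) w hw) hw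
  let τ : Representation F N W₀ := (rep F V N).subrepresentation W₀ fun n => NW n n.2
  have τa : ∀ (n : N) (w : W₀), (τ n w : V) = (n : Δ) • (w : V) := fun _ _ => rfl
  have hσ := fieldk (by omega) dW τ ⟨z, zN⟩ (fun S hS => by
      have h1 := dj (S.map W₀.subtype) (by
        rintro _ ⟨u, hu, rfl⟩
        exact ⟨_, hS u hu, rfl⟩)
      have h2 : S.map W₀.subtype ⊓ l = ⊥ :=
        disjoint_iff.1 (hc.disjoint.symm.mono_left (Submodule.map_subtype_le _ _))
      rw [h2, finrank_bot, Submodule.finrank_map_subtype_eq] at h1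
      have h3 := Submodule.finrank_le S
      by_cases h0 : finrank F S = 0
      · exact Or.inl (Submodule.finrank_eq_zero.1 h0)
      · have := dvd_lt_two h1 (by omega)
        exact Or.inr (Submodule.eq_top_of_finrank_eq (by omega)))
    (fun n => Subtype.ext (hN n n.2))
  have lift : ∀ g : Δ, ∃ n : N, ∀ v ∈ l, (n : Δ) • v = g • v := fun g => by
    obtain ⟨n, hn, c, hc, rfl⟩ := fr g
    exact ⟨⟨n, hn⟩, fun v hv => by rw [mul_smul, hc v hv]⟩
  obtain ⟨g, a1, a2, a3⟩ := u1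
  obtain ⟨a, ha⟩ := lift g
  rw [← ha x xl] at a1
  rw [← ha t tl] at a2
  rw [← ha y yl] at a3
  obtain ⟨g', b1, b2, b3⟩ := u2
  obtain ⟨b, hb⟩ := lift g'
  rw [← hb x xl] at b1
  rw [← hb y yl] at b2
  rw [← hb t tl] at b3
  have a1' : (a : Δ)⁻¹ • x = x := by rw [inv_smul_eq_iff, a1]
  have a2' : (a : Δ)⁻¹ • t = t := by rw [inv_smul_eq_iff, a2]
  have a3' : (a : Δ)⁻¹ • y = y - x := by rw [inv_smul_eq_iff, smul_sub, a1, a3]; abel
  have b1' : (b : Δ)⁻¹ • x = x := by rw [inv_smul_eq_iff, b1]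
  have b2' : (b : Δ)⁻¹ • y = y := by rw [inv_smul_eq_iff, b2]
  have b3' : (b : Δ)⁻¹ • t = t - y := by rw [inv_smul_eq_iff, smul_sub, b2, b3]; abel
  have ix : ((a * b * a⁻¹ * b⁻¹ : N) : Δ) • x = x := by
    simp only [Subgroup.coe_mul, Subgroup.coe_inv, mul_smul, a1, a1', b1, b1']
  have iy : ((a * b * a⁻¹ * b⁻¹ : N) : Δ) • y = y + (0 : F) • x := by
    simp only [Subgroup.coe_mul, Subgroup.coe_inv, mul_smul, smul_sub, a1, a3, a3', b1, b2, b2']
    module
  have it : ((a * b * a⁻¹ * b⁻¹ : N) : Δ) • t = t + (1 : F) • x := by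
    simp only [Subgroup.coe_mul, Subgroup.coe_inv, mul_smul, smul_sub, smul_add, a1, a2, a3, a2', a3', b1, b2, b3,
      b3']
    module
  have hi := hσ a b
  generalize a * b * a⁻¹ * b⁻¹ = i at ix iy it hi
  have triv : ∀ w ∈ W₀, (i : Δ) ^ (Fintype.card F ^ k - 1) • w = w := fun w hw => by
    have t := τa (i ^ (Fintype.card F ^ k - 1)) ⟨w, hw⟩
    rw [map_pow, hi] at t
    exact t.symm
  have cast : ((Fintype.card F ^ k - 1 : ℕ) : F) = -1 := by
    rw [Nat.cast_sub (Nat.one_le_pow _ _ Fintype.card_pos)]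
    simp [show k ≠ 0 by omega]
  obtain ⟨m1, m2⟩ := pow_uni ix iy (Fintype.card F ^ k - 1)
  have m3 := (pow_uni ix it (Fintype.card F ^ k - 1)).2
  rw [cast] at m3
  generalize (i : Δ) ^ (Fintype.card F ^ k - 1) = m at triv m1 m2 m3
  refine ⟨m, x, m1, fun v => ?_, t, by simp [m3, hx]⟩
  obtain ⟨u, hu, w, hw, rfl⟩ := Submodule.mem_sup.1 (hc.sup_eq_top ▸ Submodule.mem_top (x := v))
  obtain ⟨c1, c2, c3, rfl⟩ := sp u hu
  refine Submodule.mem_span_singleton.2 ⟨-c3, ?_⟩
  simp only [smul_add, gsm m, triv w hw, m1, m2, m3]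
  module

end

variable {F V W Γ : Type*} [Field F] [Fintype F] [AddCommGroup V] [Module F V] [Finite V]
  [AddCommGroup W] [Module F W] [Finite W] [Group Γ] [Finite Γ]
  [DistribMulAction Γ V] [SMulCommClass Γ F V] [DistribMulAction Γ W] [SMulCommClass Γ F W]
  {B : V →ₗ[F] W →ₗ[F] F}

theorem Hyp.perin [FaithfulSMul Γ V] (h : Hyp Γ B) {k s : ℕ} (hk : finrank F V = k + 3) (h4 : 4 ≤ k) (hs : s.Prime)
    (H : ∀ a b : ℕ, b ≤ a → Fintype.card F ^ a ≡ Fintype.card F ^ b [MOD s] → k ∣ a - b) (hd : s ∣ Nat.card Γ) :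
    TV F V Γ := by
  have := Fact.mk hs
  obtain ⟨r, hr⟩ := exists_prime_orderOf_dvd_card' (G := Γ) s hd
  have dl := dim_fxk (V := V) hk h4 hs H hr
  obtain ⟨x, xl, hx⟩ := H7.exists_mem_notMem_of_finrank_lt (U := Fx F V r) (W := ⊥)
    (by rw [finrank_bot]; omega)
  have hx := ne_zero_of_not_mem hx
  obtain ⟨y, yl, hy⟩ := H7.exists_mem_notMem_of_finrank_lt (U := Fx F V r) (W := F ∙ x)
    (by rw [finrank_span_singleton hx]; omega)
  have d2 : finrank F (Submodule.span F {x, y}) = 2 := by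
    have := Submodule.finrank_sup_span_singleton hy
    rwa [finrank_span_singleton hx, ← Submodule.span_union] at this
  obtain ⟨t, tl, ht⟩ := H7.exists_mem_notMem_of_finrank_lt (U := Fx F V r) (W := Submodule.span F {x, y})
    (by omega)
  have sp : ∀ v ∈ Fx F V r, ∃ a b c : F, v = a • x + b • y + c • t := fun v hv => by
    have e : Submodule.span F {x, y} ⊔ (F ∙ t) = Fx F V r := Submodule.eq_of_le_of_finrank_eq
      (sup_le (Submodule.span_le.2 (Set.pair_subset xl yl)) ((Submodule.span_singleton_le_iff_mem _ _).2 tl))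
      (by rw [Submodule.finrank_sup_span_singleton ht, d2, dl])
    rw [← e] at hv
    obtain ⟨u, hu, w, hw, rfl⟩ := Submodule.mem_sup.1 hv
    obtain ⟨a, b, rfl⟩ := Submodule.mem_span_pair.1 hu
    obtain ⟨c, rfl⟩ := Submodule.mem_span_singleton.1 hw
    exact ⟨a, b, c, rfl⟩
  have mem : ∀ g : Γ, g • x ∈ Fx F V r → g • y ∈ Fx F V r → g • t ∈ Fx F V r → g ∈ SS Γ (Fx F V r) :=
    fun g h1 h2 h3 v hv => by
      obtain ⟨a, b, c, rfl⟩ := sp v hv
      rw [smul_add, smul_add, gsm, gsm, gsm]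
      exact Submodule.add_mem _ (Submodule.add_mem _ (Submodule.smul_mem _ _ h1) (Submodule.smul_mem _ _ h2))
        (Submodule.smul_mem _ _ h3)
  let r' : SS Γ (Fx F V r) := ⟨r, fun v hv => by rwa [mem_Fx.1 hv]⟩
  obtain ⟨g, b, h1, h2, h3⟩ := corek (Δ := SS Γ (Fx F V r)) (r := r') hk h4 hs H
    (by rw [← Subgroup.orderOf_coe, hr]) (fun g => g.2) hx xl yl tl sp
    (by
      obtain ⟨g, g1, g2, g3⟩ := h.ps (not_mem_pair hy ht) (u := x) (Submodule.subset_span (by simp))
      exact ⟨⟨g, mem g (by rwa [g1]) (by rw [g3]; exact Submodule.add_mem _ yl xl) (by rwa [g2])⟩, g1, g2, g3⟩)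
    (by
      obtain ⟨g, g1, g2, g3⟩ := h.ps ht (u := y) (Submodule.subset_span (by simp))
      exact ⟨⟨g, mem g (by rwa [g1]) (by rwa [g2]) (by rw [g3]; exact Submodule.add_mem _ tl yl)⟩, g1, g2, g3⟩)
  exact ⟨g, b, h1, h2, h3⟩

end Cfsg.Agent.H5.CK
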