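import Cfsg.Agent.Sg.F
import Cfsg.Agent.H5.CK

/-! Reflections from the local structure when `n ^ 2 ∣ q - 1`. -/

set_option autoImplicit false
set_option linter.unusedSectionVars false

namespace Cfsg.Agent.Sg

open Module Subgroup Function Cfsg.Agent.Bd Cfsg.Agent.H5.CK

theorem uni {ι : Type*} [Fintype ι] {n k : ℕ} [Fact n.Prime] {τ : ι → ι} (hk : ∀ i, τ^[n ^ k] i = i)
    {i₀ : ι} (ht : ∀ j, ∃ m, τ^[m] i₀ = j) (B : Submodule (ZMod n) (ι → ZMod n))
    (hB : ∀ a ∈ B, a ∘ τ ∈ B) {a₀ : ι → ZMod n} (h0 : a₀ ∈ B) (hs : ∑ i, a₀ i ≠ 0) : B = ⊤ := by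
  classical
  have hn : n.Prime := Fact.out
  set S : End (ZMod n) (ι → ZMod n) := LinearMap.funLeft (ZMod n) (ZMod n) τ with hS
  have Sp : ∀ (m : ℕ) a, (S ^ m) a = a ∘ τ^[m] := fun m => by
    induction m with
    | zero => intro a; rfl
    | succ m ih => intro a; rw [pow_succ', End.mul_apply, ih]; rfl
  have : Nonempty ι := ⟨i₀⟩
  have : CharP (End (ZMod n) (ι → ZMod n)) n :=
    charP_of_injective_algebraMap (algebraMap (ZMod n) _).injective n
  have hN : (S - 1) ^ n ^ k = 0 := by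
    rw [sub_pow_char_pow_of_commute _ _ (Commute.one_right S), one_pow, sub_eq_zero]
    ext1 a
    refine LinearMap.ext fun c => ?_
    simp only [LinearMap.comp_apply, Sp]
    ext i
    simp [hk]
  have inj : Injective τ := by
    obtain ⟨r, hr⟩ : ∃ r, n ^ k = r + 1 := ⟨n ^ k - 1, by have := pow_pos hn.pos k; omega⟩
    intro i j e
    rw [← hk i, ← hk j, hr, iterate_succ_apply, iterate_succ_apply, e]
  set C := B ⊔ LinearMap.range (S - 1) with hC
  have c1 : ∀ j, Pi.single j (1 : ZMod n) - Pi.single i₀ 1 ∈ C := fun j => by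
    obtain ⟨m, rfl⟩ := ht j
    induction m with
    | zero => simp
    | succ m ih =>
      have : Pi.single (τ^[m] i₀) (1 : ZMod n) - Pi.single (τ (τ^[m] i₀)) 1 ∈ C :=
        Submodule.mem_sup_right ⟨Pi.single (τ (τ^[m] i₀)) 1, by
          ext i; simp [hS, Pi.single_apply, inj.eq_iff]⟩
      rw [iterate_succ_apply']
      simpa using C.sub_mem ih this
  have c2 : ∀ a : ι → ZMod n, a - (∑ i, a i) • Pi.single i₀ (1 : ZMod n) ∈ C := fun a => by
    have := C.sum_mem (t := Finset.univ) fun j _ => C.smul_mem (a j) (c1 j)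
    convert this using 1
    simp only [smul_sub, Finset.sum_sub_distrib, ← Finset.sum_smul]
    congr 1
    ext i; simp [Pi.single_apply]
  have c3 : Pi.single i₀ (1 : ZMod n) ∈ C := by
    have := C.sub_mem (Submodule.mem_sup_left h0) (c2 a₀)
    rw [sub_sub_cancel] at this
    exact (C.smul_mem_iff hs).1 this
  have c4 : ∀ a, a ∈ C := fun a => by simpa using C.add_mem (c2 a) (C.smul_mem (∑ i, a i) c3)
  have c5 : ∀ (m : ℕ) a, ∃ a', a - ((S - 1) ^ m) a' ∈ B := fun m => by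
    induction m with
    | zero => exact fun a => ⟨a, by simp⟩
    | succ m ih =>
      intro a
      obtain ⟨x, hx, _, ⟨y, rfl⟩, rfl⟩ := Submodule.mem_sup.1 (c4 a)
      obtain ⟨z, hz⟩ := ih y
      refine ⟨z, ?_⟩
      have := B.add_mem hx (B.sub_mem (hB _ hz) hz)
      convert this using 1
      rw [pow_succ', End.mul_apply, add_sub_assoc, ← map_sub]
      rfl
  refine eq_top_iff.2 fun a _ => ?_
  obtain ⟨a', h⟩ := c5 (n ^ k) a
  simpa [hN] using h

variable {F V ι : Type*} [Field F] [AddCommGroup V] [Module F V] [Fintype ι] {b : Basis ι F V}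

theorem det_dg {g : V ≃ₗ[F] V} {l : ι → F} (h : ∀ i, g (b i) = l i • b i) :
    (LinearEquiv.det g : F) = ∏ i, l i := by
  classical
  rw [LinearEquiv.coe_det, ← LinearMap.det_toMatrix b, ← Matrix.det_diagonal]
  congr 1
  ext i j
  by_cases e : i = j <;> simp [LinearMap.toMatrix_apply, h, Finsupp.single_apply, e, eq_comm]

theorem pow_eig {g : V ≃ₗ[F] V} {v : V} {c : F} (h : g v = c • v) (j : ℕ) : (g ^ j) v = c ^ j • v := by
  induction j with
  | zero => simp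
  | succ j ih => rw [pow_succ', LinearEquiv.mul_apply, ih, map_smul, h, smul_smul, pow_succ]

theorem le_withScal (M : Subgroup (V ≃ₗ[F] V)) : M ≤ withScal M :=
  fun g hg => ⟨g, hg, 1, one_ne_zero, by simp⟩

theorem refl_of_Fr [Finite (V ≃ₗ[F] V)] {n : ℕ} (hn : n.Prime) (hι : Fintype.card ι = n)
    {M Q R : Subgroup (V ≃ₗ[F] V)} {φ : V ≃ₗ[F] V} {i₀ : ι} (h : Fr n b M φ i₀ Q R)
    (hdet : ∀ g ∈ M, LinearEquiv.det g = 1) {κ : F} (h1 : κ ^ n ^ 2 = 1) (h2 : κ ^ n ≠ 1) :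
    ∃ ζ : F, ζ ≠ 0 ∧ ζ ≠ 1 ∧ ∀ i, H7.Has (withScal M) ((ζ - 1) • b.coord i) (b i) := by
  classical
  have := Fact.mk hn
  have hu : (Set.univ : Set ι).ncard = n := by rw [Set.ncard_univ, Nat.card_eq_fintype_card, hι]
  have pQ : IsPGroup n Q := h.pg.to_le h.QR
  have ex : ∃ m, ∀ D ∈ Q, D ^ n ^ m = 1 := by
    obtain ⟨m, hm⟩ := IsPGroup.iff_card.1 pQ
    exact ⟨m, fun D hD => congrArg Subtype.val (hm ▸ pow_card_eq_one' (x := (⟨D, hD⟩ : Q)))⟩
  obtain ⟨r, r1, r2⟩ : ∃ r, (∀ D ∈ Q, D ^ n ^ (r + 2) = 1) ∧ ∃ D ∈ Q, D ^ n ^ (r + 1) ≠ 1 := by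
    have a1 : 2 ≤ Nat.find ex := by
      by_contra hc
      obtain ⟨D, hD, e⟩ := h.onto κ (by rintro rfl; simp [hn.ne_zero] at h1) ⟨2, h1⟩
      have e1 : D ^ n = 1 := by
        obtain ⟨s, hs⟩ : n ^ Nat.find ex ∣ n ^ 1 := pow_dvd_pow n (by omega)
        rw [← pow_one n, hs, pow_mul, Nat.find_spec ex D hD, one_pow]
      have := pow_eig e n
      rw [e1] at this
      exact h2 (smul_left_injective F (b.ne_zero i₀) (this.symm.trans (one_smul F _).symm))
    refine ⟨Nat.find ex - 2, by rw [Nat.sub_add_cancel a1]; exact Nat.find_spec ex, ?_⟩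
    have := Nat.find_min ex (m := Nat.find ex - 2 + 1) (by omega)
    push Not at this
    exact this
  let Q' : Subgroup (V ≃ₗ[F] V) :=
    { carrier := {x | ∃ D ∈ Q, D ^ n ^ (r + 1) = x}
      one_mem' := ⟨1, Q.one_mem, one_pow _⟩
      mul_mem' := by
        rintro _ _ ⟨x, hx, rfl⟩ ⟨y, hy, rfl⟩
        exact ⟨x * y, Q.mul_mem hx hy, Commute.mul_pow (Dg_comm (h.dg hx) (h.dg hy)) _⟩
      inv_mem' := by
        rintro _ ⟨x, hx, rfl⟩
        exact ⟨x⁻¹, Q.inv_mem hx, inv_pow _ _⟩ }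
  obtain ⟨_, ⟨⟨D, hD, rfl⟩, D1⟩, D2⟩ := exists_fix_conj h.pg ((Q' : Set (V ≃ₗ[F] V)) \ {1}) (by
    rintro g hg _ ⟨⟨x, hx, rfl⟩, x1⟩
    refine ⟨⟨_, h.nrm g hg x hx, conj_pow⟩, fun e => x1 ?_⟩
    simpa [mul_inv_eq_one] using e) (fun hd => by
    obtain ⟨j, hj⟩ := IsPGroup.iff_card.1 (pQ.to_le (H := Q') (by
      rintro _ ⟨x, hx, rfl⟩; exact Q.pow_mem hx _))
    have e1 := Set.ncard_diff_singleton_add_one (s := (Q' : Set (V ≃ₗ[F] V))) Q'.one_mem
    replace e1 := e1.trans hj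
    rcases j with _ | j
    · obtain ⟨x, hx, x1⟩ := r2
      exact x1 ((card_eq_one.1 hj ▸ (⟨x, hx, rfl⟩ : _ ∈ Q') : _ ∈ (⊥ : Subgroup _)))
    · exact hn.one_lt.ne' (Nat.dvd_one.1 ((Nat.dvd_add_right hd).1 (e1 ▸ dvd_pow_self n (by omega)))))
  obtain ⟨σ, hσ, hσ'⟩ := h.ne
  obtain ⟨τ, t1, ⟨k, t2⟩, t3⟩ := h.mono σ hσ hσ'
  have t4 : ∀ j, ∃ m, τ^[m] i₀ = j := fun j =>
    cyc hn hu (Set.mapsTo_univ _ _) (Set.mem_univ _) (t2 i₀) (t3 i₀) (Set.mem_univ j)
  choose d hd using h.dg hD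
  have d0 : ∀ i, d i ≠ 0 := fun i => ne_of_eq_smul (b.ne_zero i) (hd i)
  have e1 : ∀ j, d j ^ n ^ (r + 1) = d i₀ ^ n ^ (r + 1) := fun j => by
    obtain ⟨m, rfl⟩ := t4 j
    induction m with
    | zero => rfl
    | succ m ih =>
      rw [← ih, iterate_succ_apply']
      obtain ⟨a, ha⟩ := t1 (τ^[m] i₀)
      have := DFunLike.congr_fun (D2 σ hσ) (b (τ^[m] i₀))
      rw [LinearEquiv.mul_apply, LinearEquiv.mul_apply, pow_eig (hd _), map_smul, ha, map_smul,
        pow_eig (hd _), smul_comm] at this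
      exact (smul_left_injective F (b.ne_zero _) (smul_right_injective V
        (ne_of_eq_smul (b.ne_zero _) ha) this)).symm
  set ζ := d i₀ ^ n ^ (r + 1) with hζ
  have z1 : ζ ≠ 1 := fun e => D1 (b.ext' fun i => by rw [pow_eig (hd i), e1, e]; simp)
  have z2 : ζ ^ n = 1 := by
    have := pow_eig (hd i₀) (n ^ (r + 2))
    rw [r1 D hD, pow_succ n, pow_mul] at this
    exact smul_left_injective F (b.ne_zero i₀) (this.symm.trans (one_smul F _).symm)
  have z0 : ζ ≠ 0 := pow_ne_zero _ (d0 _)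
  have z3 : IsPrimitiveRoot ζ n := orderOf_eq_prime z2 z1 ▸ IsPrimitiveRoot.orderOf ζ
  set ψ := AddChar.zmodChar n z2 with hψ
  let B : AddSubgroup (ι → ZMod n) :=
    { carrier := {a | ∃ g ∈ withScal M, ∀ i, g (b i) = ψ (a i) • b i}
      zero_mem' := ⟨1, one_mem _, by simp⟩
      add_mem' := by
        rintro x y ⟨g, hg, e⟩ ⟨g', hg', e'⟩
        exact ⟨g' * g, mul_mem hg' hg, fun i => by
          simp [e, e', smul_smul, AddChar.map_add_eq_mul]⟩
      neg_mem' := by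
        rintro x ⟨g, hg, e⟩
        refine ⟨g⁻¹, inv_mem hg, fun i => g.injective ?_⟩
        simp [e, smul_smul, ← AddChar.map_add_eq_mul] }
  have : ∀ i, ∃ a : ZMod n, ψ a = ((d i₀)⁻¹ * d i) ^ n ^ r := fun i => by
    obtain ⟨j, -, e⟩ := z3.eq_pow_of_pow_eq_one (ξ := ((d i₀)⁻¹ * d i) ^ n ^ r) (by
      rw [← pow_mul, ← pow_succ, mul_pow, inv_pow, e1 i₀, e1 i, inv_mul_cancel₀ z0])
    exact ⟨j, by rw [hψ, AddChar.zmodChar_apply', e]⟩
  choose a₀ ha₀ using this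
  have top := uni t2 t4 (AddSubgroup.toZModSubmodule n B) (by
    rintro a ⟨g, hg, e⟩
    have m := le_withScal M (h.le hσ)
    refine ⟨σ⁻¹ * g * σ, mul_mem (mul_mem (inv_mem m) hg) m, fun i => σ.injective ?_⟩
    obtain ⟨c, hc⟩ := t1 i
    simp [hc, e, smul_smul, mul_comm]) (a₀ := a₀) (by
    refine ⟨LinearEquiv.smulOfNeZero F V ((d i₀)⁻¹ ^ n ^ r) (pow_ne_zero _ (inv_ne_zero (d0 _))) *
      D ^ n ^ r, ⟨_, M.pow_mem (h.le (h.QR hD)) (n ^ r), _, pow_ne_zero (n ^ r) (inv_ne_zero (d0 i₀)),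
        fun _ => rfl⟩, fun i => ?_⟩
    rw [ha₀, mul_pow, mul_smul, ← pow_eig (hd i)]
    rfl) (fun e => by
    have e2 : ∀ s : Finset ι, ψ (∑ i ∈ s, a₀ i) = ∏ i ∈ s, ψ (a₀ i) := fun s => by
      induction s using Finset.induction_on with
      | empty => simp
      | insert i s hi ih => rw [Finset.sum_insert hi, Finset.prod_insert hi, AddChar.map_add_eq_mul, ih]
    have e3 := e2 Finset.univ
    have e4 := det_dg hd
    rw [hdet D (h.le (h.QR hD)), Units.val_one] at e4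
    simp only [ha₀, e, AddChar.map_zero_eq_one, Finset.prod_pow, Finset.prod_mul_distrib, ← e4,
      Finset.prod_const, Finset.card_univ, hι, mul_one] at e3
    rw [← pow_mul, ← pow_succ', inv_pow, eq_comm, inv_eq_one] at e3
    exact z1 e3)
  refine ⟨ζ, z0, z1, fun i => ?_⟩
  obtain ⟨g, hg, e⟩ : Pi.single i 1 ∈ B := top.ge (Submodule.mem_top (x := Pi.single i 1))
  refine ⟨g, hg, fun z => ?_⟩
  have : (g : V →ₗ[F] V) = LinearMap.id + ((ζ - 1) • b.coord i).smulRight (b i) := b.ext fun j => by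
    by_cases hij : j = i
    · subst hij
      have : ψ 1 = ζ := by simpa using AddChar.zmodChar_apply' z2 1
      simp [e, this, sub_smul]
    · simp [e, hij]
  exact LinearMap.congr_fun this z

end Cfsg.Agent.Sg
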