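import Cfsg.Agent.Sg.Per
import Cfsg.Agent.H5.CKb
import Cfsg.Agent.H5.CK

/-! Cameron-Kantor in odd dimension: restriction to a hyperplane and the final reduction. -/

set_option autoImplicit false
set_option linter.unusedSectionVars false

namespace Cfsg.Agent.H5.CK

open Module

section
variable {F V W Γ : Type*} [Field F] [Fintype F] [AddCommGroup V] [Module F V] [Finite V]
  [AddCommGroup W] [Module F W] [Finite W] [Group Γ] [Finite Γ]
  [DistribMulAction Γ V] [SMulCommClass Γ F V] [DistribMulAction Γ W] [SMulCommClass Γ F W]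
  {B : V →ₗ[F] W →ₗ[F] F}

theorem Hyp.tr_dvd (h : Hyp Γ B) (tr : Tr Γ B) {k : ℕ} (hd : finrank F V = k + 2) :
    Fintype.card F ^ k - 1 ∣ Nat.card Γ := by
  obtain ⟨φ, hφ⟩ := h.flip.exists_not_mem 0
  have hφ := ne_zero_of_not_mem hφ
  have dk := h.toPre.finrank_ker hφ
  have d3 := h.dim
  obtain ⟨x, x1, hx⟩ := H7.exists_mem_notMem_of_finrank_lt (U := LinearMap.ker (B.flip φ))
    (W := ⊥) (by rw [finrank_bot]; omega)
  have hx := ne_zero_of_not_mem hx
  obtain ⟨v, v1, v2⟩ := H7.exists_mem_notMem_of_finrank_lt (U := LinearMap.ker (B.flip φ))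
    (W := F ∙ x) (by rw [finrank_span_singleton hx]; omega)
  have eO : MulAction.orbit (SS Γ (F ∙ x) ⊓ SS Γ (F ∙ φ) : Subgroup Γ) v =
      (LinearMap.ker (B.flip φ) : Set V) \ (F ∙ x : Submodule F V) := by
    ext u
    constructor
    · rintro ⟨g, rfl⟩
      exact ⟨h.toPre.ker_SS g.2.2 v v1, fun e => v2 ((SS_iff g.2.1).1 e)⟩
    · rintro ⟨u1, u2⟩
      obtain ⟨g, hg, e⟩ := tr x φ ⟨hx, hφ, x1⟩ v u v1 v2 u1 u2
      exact ⟨⟨g, hg⟩, e⟩
  have : Nat.card (MulAction.orbit (SS Γ (F ∙ x) ⊓ SS Γ (F ∙ φ) : Subgroup Γ) v) =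
      Fintype.card F ^ (k + 1) - Fintype.card F := by
    rw [eO, Nat.card_coe_set_eq, Set.ncard_sdiff
      ((Submodule.span_singleton_le_iff_mem _ _).2 x1), ← Nat.card_coe_set_eq,
      ← Nat.card_coe_set_eq]
    have a := card_sub (F := F) (LinearMap.ker (B.flip φ))
    have b := card_sub (F := F) (F ∙ x)
    rw [finrank_span_singleton hx, pow_one] at b
    rw [show finrank F (LinearMap.ker (B.flip φ)) = k + 1 by omega] at a
    exact congrArg₂ _ a b
  refine dvd_trans (b := Fintype.card F ^ (k + 1) - Fintype.card F)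
    ⟨Fintype.card F, by rw [Nat.sub_mul, one_mul, ← pow_succ]⟩ ?_
  rw [← this]
  refine dvd_trans ?_ (Subgroup.card_subgroup_dvd_card (SS Γ (F ∙ x) ⊓ SS Γ (F ∙ φ)))
  rw [Nat.card_congr (MulAction.orbitEquivQuotientStabilizer _ v)]
  exact Subgroup.card_quotient_dvd_card _

theorem Hyp.restrict (h : Hyp Γ B) (tr : Tr Γ B) (h4 : 4 ≤ finrank F V) {φ : W} (hφ : φ ≠ 0) :
    ∃ M : Subgroup (Hy B φ ≃ₗ[F] Hy B φ), Nat.card M ∣ Nat.card Γ ∧
      (∀ c : F, c ≠ 0 → ∃ g ∈ M, ∀ v, g v = c • v) ∧ ∀ x y x' y' : Hy B φ, x ≠ 0 → y ∉ F ∙ x → x' ≠ 0 →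
        y' ∉ F ∙ x' → ∃ g ∈ M, (∃ a : F, g x = a • x') ∧ g y = y' := by
  let τ : Representation F (SS Γ (F ∙ φ)) (Hy B φ) :=
    (rep F V (SS Γ (F ∙ φ))).subrepresentation (Hy B φ) fun g => h.toPre.ker_SS g.2
  let ρ : SS Γ (F ∙ φ) →* (Hy B φ ≃ₗ[F] Hy B φ) :=
    (LinearMap.GeneralLinearGroup.generalLinearEquiv F (Hy B φ)).toMonoidHom.comp τ.toHomUnits
  have ρa : ∀ g v, (ρ g v : V) = (g : Γ) • (v : V) := fun _ _ => rfl
  have sp : ∀ {x y : Hy B φ}, y ∉ F ∙ x → (y : V) ∉ F ∙ (x : V) := fun {x y} hy e => by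
    obtain ⟨c, hc⟩ := Submodule.mem_span_singleton.1 e
    exact hy (Submodule.mem_span_singleton.2 ⟨c, Subtype.ext hc⟩)
  refine ⟨ρ.range, (Subgroup.card_range_dvd ρ).trans (Subgroup.card_subgroup_dvd_card _), fun c hc => ?_,
    fun x y x' y' hx hy hx' hy' => ?_⟩
  · obtain ⟨g, -, g1, g2, -⟩ := h.scal_mem hc
    exact ⟨ρ ⟨g, g1 _⟩, ⟨_, rfl⟩, fun v => Subtype.ext (g2 v)⟩
  · have x0 : (x : V) ≠ 0 := fun e => hx (Subtype.ext e)
    have x0' : (x' : V) ≠ 0 := fun e => hx' (Subtype.ext e)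
    obtain ⟨g, hg, e⟩ := h.flag' hφ x0 x0' x.2 x'.2
    obtain ⟨k, hk, e'⟩ := tr x' φ ⟨x0', hφ, x'.2⟩ (g • (y : V)) y' (h.toPre.ker_SS hg _ y.2) (fun c => sp hy (by
      obtain ⟨a, ha⟩ := Submodule.mem_span_singleton.1 c
      rw [← e, ← gsm, smul_left_cancel_iff] at ha
      exact Submodule.mem_span_singleton.2 ⟨a, ha⟩)) y'.2 (sp hy')
    obtain ⟨a, ha⟩ := mem_SS_span.1 hk.1
    exact ⟨ρ ⟨k * g, mul_mem hk.2 hg⟩, ⟨_, rfl⟩, ⟨a, Subtype.ext (by rw [ρa, mul_smul, e, ha]; rfl)⟩,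
      Subtype.ext (by rw [ρa, mul_smul, e'])⟩

end

universe u v

open scoped LinearAlgebra.Projectivization in
/-- the Cameron-Kantor theorem in odd dimension from the structure theorem and Zsigmondy primes -/
theorem ck_of {F : Type u} {V : Type v} [Field F] [Fintype F] [AddCommGroup V] [Module F V] [FiniteDimensional F V]
    (ST : ∀ (U : Type v) [AddCommGroup U] [Module F U] [Finite U] [Finite (Dl F U)] [Finite (U ≃ₗ[F] U)]
      (M : Subgroup (U ≃ₗ[F] U)), Hyp M (ev F U) → 7 ≤ finrank F U → Tr M (ev F U) ∨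
        (Odd (finrank F U) ∧ Fintype.card F ^ (finrank F U - 3) - 1 ∣ Nat.card M))
    (ZS : ∀ {q k : ℕ}, 2 ≤ q → 8 ≤ k → Even k → ∃ s, s.Prime ∧ s ∣ q ^ k - 1 ∧
      ∀ a b, b ≤ a → q ^ a ≡ q ^ b [MOD s] → k ∣ a - b)
    (ho : Odd (finrank F V)) (h11 : 11 ≤ finrank F V) (M : Subgroup (V ≃ₗ[F] V))
    (h2 : ∀ x y x' y' : ℙ F V, x ≠ y → x' ≠ y' → ∃ g ∈ M, g • x = x' ∧ g • y = y')
    (g : V ≃ₗ[F] V) (hg : LinearEquiv.det g = 1) : g ∈ M := by
  have : Finite V := Module.finite_of_finite F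
  have : Finite (Dl F V) := Module.finite_of_finite (R := F) (M := Dual F V)
  have : Finite (V ≃ₗ[F] V) := Finite.of_injective _ (DFunLike.coe_injective (F := V ≃ₗ[F] V))
  have h := hyp_withScal (by omega) M h2
  obtain ⟨k, hk⟩ : ∃ k, finrank F V = k + 3 := ⟨finrank F V - 3, by omega⟩
  have dv : Fintype.card F ^ k - 1 ∣ Nat.card (withScal M) := by
    rcases ST V _ h (by omega) with tr | ⟨-, e⟩
    · obtain ⟨φ, hφ⟩ := h.flip.exists_not_mem 0
      have hφ := ne_zero_of_not_mem hφ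
      have dk : finrank F (Hy (ev F V) φ) + 1 = finrank F V := h.toPre.finrank_ker hφ
      obtain ⟨M', m1, m2, m3⟩ := h.restrict tr (by omega) hφ
      generalize Hy (ev F V) φ = U at M' m1 m2 m3 dk
      have : Finite (Dl F U) := Module.finite_of_finite (R := F) (M := Dual F U)
      have : Finite (U ≃ₗ[F] U) := Finite.of_injective _ (DFunLike.coe_injective (F := U ≃ₗ[F] U))
      have h' : Hyp M' (ev F U) :=
        { inv := fun g v w => congrArg (show Dual F U from w) (g.1.symm_apply_apply v)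
          sepV := fun v hv => (forall_dual_apply_eq_zero_iff F v).1 hv
          sepW := fun w hw => LinearMap.ext hw
          scal := fun c hc => let ⟨g, hg, e⟩ := m2 c hc; ⟨⟨g, hg⟩, e⟩
          two := fun x y x' y' hx hy hx' hy' => let ⟨g, hg, e⟩ := m3 x y x' y' hx hy hx' hy'; ⟨⟨g, hg⟩, e⟩
          dim := by omega }
      rcases ST U _ h' (by omega) with tr' | ⟨e, -⟩
      · exact (h'.tr_dvd tr' (by omega)).trans m1
      · rw [← dk, Nat.odd_add_one] at ho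
        exact absurd e ho
    · rwa [hk, Nat.add_sub_cancel] at e
  obtain ⟨s, hs, sd, H⟩ := ZS (q := Fintype.card F) (k := k) Fintype.one_lt_card (by omega) (by
    rw [hk] at ho
    obtain ⟨m, hm⟩ := ho
    exact ⟨m - 1, by omega⟩)
  refine H7.mem_of_det_of_has (fun φ b hb => has_of_withScal hb ?_) g hg
  obtain ⟨t, ht⟩ := h.all_tv (h.perin hk (by omega) hs H (sd.trans dv)) (-b) φ (by
    show φ (-b) = 0
    simp [hb])
  exact ⟨t, t.2, ht⟩

end Cfsg.Agent.H5.CK
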